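import Cfsg.Agent.H556.OddCoreE

/-!
# Odd normal subgroups of orthogonal groups of odd index, VI (helper556): the version for subgroups of `Omega`
-/

set_option autoImplicit false
set_option linter.unusedSectionVars false

namespace Cfsg.Agent.H556.OddCore

open Module QuadraticMap Cfsg.Agent.H556.Om Cfsg.Agent.H167.OP Cfsg.Agent.H170.HL Cfsg.Agent.H170.HL.OmRow

/-- the centre of a normal `r`-subgroup -/
theorem exists_abelian {K : Type*} [Group K] [Finite K] {H : Subgroup K} {r : ℕ} (hr : r.Prime) (hr2 : r ≠ 2)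
    {B : Subgroup K} (hBH : B ≤ H) (hB1 : B ≠ ⊥) (hBr : IsPGroup r B) (hBn : ∀ h ∈ H, ∀ b ∈ B, h * b * h⁻¹ ∈ B) :
    ∃ A : Subgroup H, A.Normal ∧ A ≠ ⊥ ∧ (∀ a ∈ A, ∀ b ∈ A, a * b = b * a) ∧ Odd (Nat.card A) := by
  have := Fact.mk hr
  have hBnt : Nontrivial B := (Subgroup.nontrivial_iff_ne_bot B).mpr hB1
  have hZ : Nontrivial (Subgroup.center B) := hBr.center_nontrivial
  let A : Subgroup H :=
    { carrier := {x | (x : K) ∈ B ∧ ∀ b ∈ B, (x : K) * b = b * x}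
      one_mem' := ⟨B.one_mem, fun b _ => by simp⟩
      mul_mem' := by
        rintro x y ⟨hx, hx1⟩ ⟨hy, hy1⟩
        refine ⟨B.mul_mem hx hy, fun b hb => ?_⟩
        rw [Subgroup.coe_mul, mul_assoc, hy1 b hb, ← mul_assoc, hx1 b hb, mul_assoc]
      inv_mem' := by
        rintro x ⟨hx, hx1⟩
        refine ⟨B.inv_mem hx, fun b hb => ?_⟩
        rw [Subgroup.coe_inv]
        have h1 := hx1 b hb
        calc (x : K)⁻¹ * b = (x : K)⁻¹ * (b * x) * (x : K)⁻¹ := by group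
          _ = (x : K)⁻¹ * (x * b) * (x : K)⁻¹ := by rw [h1]
          _ = b * (x : K)⁻¹ := by group }
  refine ⟨A, ⟨?_⟩, ?_, ?_, ?_⟩
  · rintro x ⟨hx, hx1⟩ g
    refine ⟨hBn g g.2 x hx, fun b hb => ?_⟩
    have h3 : (g : K)⁻¹ * b * g ∈ B := by
      have := hBn (g : K)⁻¹ (H.inv_mem g.2) b hb
      rwa [inv_inv] at this
    have h4 := hx1 _ h3
    show (g : K) * x * (g : K)⁻¹ * b = b * (g * x * (g : K)⁻¹)
    calc (g : K) * x * (g : K)⁻¹ * b = g * (x * ((g : K)⁻¹ * b * g)) * (g : K)⁻¹ := by group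
      _ = g * (((g : K)⁻¹ * b * g) * x) * (g : K)⁻¹ := by rw [h4]
      _ = b * (g * x * (g : K)⁻¹) := by group
  · obtain ⟨⟨⟨c, hcB⟩, hc⟩, hc1⟩ := exists_ne (1 : Subgroup.center B)
    intro hbot
    have h1 : (⟨c, hBH hcB⟩ : H) ∈ A := by
      refine ⟨hcB, fun b hb => ?_⟩
      exact (congrArg Subtype.val (Subgroup.mem_center_iff.mp hc ⟨b, hb⟩)).symm
    rw [hbot, Subgroup.mem_bot] at h1
    have h5 : c = 1 := congrArg Subtype.val h1
    apply hc1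
    apply Subtype.ext
    apply Subtype.ext
    exact h5
  · rintro x ⟨hx, hx1⟩ y ⟨hy, -⟩
    exact Subtype.ext (hx1 y hy)
  · have h1 : Nat.card A ∣ Nat.card B := by
      have h3 : A.map H.subtype ≤ B := by
        rintro _ ⟨x, hx, rfl⟩
        exact hx.1
      have h4 := Subgroup.card_dvd_of_le h3
      rwa [Subgroup.card_map_of_injective H.subtype_injective] at h4
    obtain ⟨m, hm⟩ := hBr.exists_card_eq
    rw [hm] at h1
    exact ((hr.odd_of_ne_two hr2).pow).of_dvd_nat h1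

variable {F : Type*} [Field F] {ι : Type} [Fintype ι] [DecidableEq ι] {Q : QuadraticForm F (ι → F)}

/-- **r3, version for `Omega`** -/
theorem exists_two_normal [Finite F] (hQ : GoodQ Q) (h2 : (2 : F) ≠ 0) (hN : 5 ≤ Fintype.card ι)
    {H : Subgroup (Cfsg.Omega F (⇑Q))} (hH : ¬ 2 ∣ H.index) (hcH : (Nat.card H : F) ≠ 0) {r : ℕ} (hr : r.Prime)
    (hr2 : r ≠ 2) {B : Subgroup (Cfsg.Omega F (⇑Q))} (hBH : B ≤ H) (hB1 : B ≠ ⊥) (hBr : IsPGroup r B)
    (hBn : ∀ h ∈ H, ∀ b ∈ B, h * b * h⁻¹ ∈ B) :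
    ∃ N : Subgroup (Cfsg.Omega F (⇑Q)), N ≤ H ∧ IsPGroup 2 N ∧ (∀ h ∈ H, ∀ n ∈ N, h * n * h⁻¹ ∈ N) ∧
      ∃ n ∈ N, n ∉ Subgroup.center (Cfsg.Omega F (⇑Q)) := by
  have hfin : Finite (Cfsg.Omega F (⇑Q)) := inferInstance
  obtain ⟨A, hAn, hA1, hAa, hAo⟩ := exists_abelian hr hr2 hBH hB1 hBr hBn
  obtain ⟨z, hz1, hz2, ⟨v, hv0, hv⟩, w, hw0, hw⟩ := exists_invol hQ h2 hN hH hcH hA1 hAa hAo
  obtain ⟨N, hN1, hzN, hN2⟩ := exists_normal hz1 hz2
  refine ⟨N.map H.subtype, Subgroup.map_subtype_le _, hN2.map _, ?_, z, ⟨z, hzN, rfl⟩, fun hzc => ?_⟩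
  · rintro h hh _ ⟨n, hn, rfl⟩
    let g' : H := ⟨h, hh⟩
    exact ⟨g' * n * g'⁻¹, hN1.conj_mem n hn g', rfl⟩
  · have h1 := (Cfsg.Agent.LieClassical.OmegaCenter.mem_center_omega_iff Q hQ.nd hQ.card hQ.sing
      (z : Cfsg.Omega F (⇑Q))).mp hzc
    have h1' : inc (⇑Q) (z : Cfsg.Omega F (⇑Q)) = 1 ∨ inc (⇑Q) (z : Cfsg.Omega F (⇑Q)) = -1 := h1
    rcases h1' with h3 | h3
    · have h4 : rep (inc (⇑Q)) (z : Cfsg.Omega F (⇑Q)) w = w := by
        rw [rep_apply, h3, Matrix.one_mulVec]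
      rw [hw] at h4
      have h5 : (2 : F) • w = 0 := by
        rw [two_smul]
        nth_rewrite 1 [← h4]
        exact neg_add_cancel w
      exact hw0 ((smul_eq_zero.mp h5).resolve_left h2)
    · have h4 : rep (inc (⇑Q)) (z : Cfsg.Omega F (⇑Q)) v = -v := by
        rw [rep_apply, h3, Matrix.neg_mulVec, Matrix.one_mulVec]
      rw [hv] at h4
      have h5 : (2 : F) • v = 0 := by
        rw [two_smul]
        nth_rewrite 1 [h4]
        exact neg_add_cancel v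
      exact hv0 ((smul_eq_zero.mp h5).resolve_left h2)

end Cfsg.Agent.H556.OddCore
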