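import Cfsg.Agent.H556.OddCoreE

/-!
# S3849, orthogonal groups (helper556), part A: rotations

`a` an isometry of odd order with `dim [V,a] = 2`; commuting rotations have equal or orthogonal planes; rotations in the
same plane commute; skew maps of a plane.
-/

set_option autoImplicit false
set_option linter.unusedSectionVars false

namespace Cfsg.Agent.H556.Over

open Module Cfsg.Agent.H556.Om Cfsg.Agent.H167.OP Cfsg.Agent.H556.OddCore

variable {F : Type*} [Field F] {V : Type*} [AddCommGroup V] [Module F V] [FiniteDimensional F V]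
  {f : V →ₗ[F] V →ₗ[F] F} {G : Type*} [Group G] {ρ : Representation F G V}

/-- a faithful action of `G` by isometries -/
structure Ctx (ρ : Representation F G V) (f : V →ₗ[F] V →ₗ[F] F) : Prop where
  inj : Function.Injective ρ
  two : (2 : F) ≠ 0
  sym : ∀ u v, f u v = f v u
  nd : ∀ x, (∀ y, f x y = 0) → x = 0
  iso : ∀ g u v, f (ρ g u) (ρ g v) = f u v

theorem XX_conj {a g : G} {v : V} (hv : v ∈ XX ρ a) : ρ g v ∈ XX ρ (g * a * g⁻¹) := by
  rw [mem_XX] at hv ⊢
  rw [← mul_ap, inv_mul_cancel_right, mul_ap, hv]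

theorem YY_conj {a g : G} {v : V} (hv : v ∈ YY ρ a) : ρ g v ∈ YY ρ (g * a * g⁻¹) := by
  obtain ⟨u, rfl⟩ := mem_YY.mp hv
  refine ⟨ρ g u, ?_⟩
  show ρ (g * a * g⁻¹) (ρ g u) - ρ g u = _
  rw [← mul_ap, inv_mul_cancel_right, mul_ap, map_sub]

theorem YY_map (a g : G) : YY ρ (g * a * g⁻¹) = (YY ρ a).map (ρ g) := by
  apply le_antisymm
  · intro v hv
    refine ⟨ρ g⁻¹ v, ?_, ap_inv ρ g v⟩
    have h1 := YY_conj (g := g⁻¹) hv
    have h2 : g⁻¹ * (g * a * g⁻¹) * g⁻¹⁻¹ = a := by group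
    rwa [h2] at h1
  · rintro _ ⟨v, hv, rfl⟩
    exact YY_conj hv

theorem finrank_YY_conj (a g : G) : finrank F (YY ρ (g * a * g⁻¹)) = finrank F (YY ρ a) := by
  have h1 : ∀ (a g : G), finrank F (YY ρ (g * a * g⁻¹)) ≤ finrank F (YY ρ a) := by
    intro a g
    rw [YY_map]
    exact Submodule.finrank_map_le _ _
  refine le_antisymm (h1 a g) ?_
  have h2 := h1 (g * a * g⁻¹) g⁻¹
  have h3 : g⁻¹ * (g * a * g⁻¹) * g⁻¹⁻¹ = a := by group
  rwa [h3] at h2

/-- the commutator space is the orthogonal space of the fixed space -/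
theorem mem_XX_iff (h : Ctx ρ f) {a : G} (hc : (orderOf a : F) ≠ 0) {x : V} :
    x ∈ XX ρ a ↔ ∀ y ∈ YY ρ a, f y x = 0 := by
  constructor
  · intro hx y hy
    rw [h.sym]
    exact orth_XY h.iso hx hy
  · intro hx
    obtain ⟨x', hx', y', hy', rfl⟩ := exists_XY (ρ := ρ) hc x
    have h1 : y' = 0 := by
      apply h.nd
      intro v
      obtain ⟨x₁, hx₁, y₁, hy₁, rfl⟩ := exists_XY (ρ := ρ) hc v
      have h2 := hx y₁ hy₁
      rw [map_add, h.sym y₁ x', orth_XY h.iso hx' hy₁, zero_add] at h2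
      rw [map_add, h.sym y' x₁, orth_XY h.iso hx₁ hy', zero_add, h.sym, h2]
    rw [h1, add_zero]
    exact hx'

theorem mem_YY_iff' (h : Ctx ρ f) {a : G} (hc : (orderOf a : F) ≠ 0) {y : V} :
    y ∈ YY ρ a ↔ ∀ x ∈ XX ρ a, f x y = 0 := by
  constructor
  · exact fun hy x hx => orth_XY h.iso hx hy
  · intro hy
    obtain ⟨x', hx', y', hy', rfl⟩ := exists_XY (ρ := ρ) hc y
    have h1 : x' = 0 := by
      apply h.nd
      intro v
      obtain ⟨x₁, hx₁, y₁, hy₁, rfl⟩ := exists_XY (ρ := ρ) hc v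
      have h2 := hy x₁ hx₁
      rw [map_add, orth_XY h.iso hx₁ hy', add_zero] at h2
      rw [map_add, orth_XY h.iso hx' hy₁, add_zero, h.sym, h2]
    rw [h1, zero_add]
    exact hy'

theorem nd_YY (h : Ctx ρ f) {a : G} (hc : (orderOf a : F) ≠ 0) {y : V} (hy : y ∈ YY ρ a)
    (h0 : ∀ y' ∈ YY ρ a, f y' y = 0) : y = 0 :=
  disj_XY hc ((mem_XX_iff h hc).mpr h0) hy

/-- components of an element of an invariant subspace -/
theorem comp_mem {b : G} (hc : (orderOf b : F) ≠ 0) {U : Submodule F V} (hU : ∀ u ∈ U, ρ b u ∈ U) {x y : V}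
    (hx : x ∈ XX ρ b) (hy : y ∈ YY ρ b) (hxy : x + y ∈ U) : x ∈ U ∧ y ∈ U := by
  have hpow : ∀ n : ℕ, ∀ u ∈ U, ρ (b ^ n) u ∈ U := by
    intro n
    induction n with
    | zero => intro u hu; rwa [pow_zero, one_ap]
    | succ n ih => intro u hu; rw [pow_succ, mul_ap]; exact ih _ (hU u hu)
  have hsum : ∑ i ∈ Finset.range (orderOf b), ρ (b ^ i) y = 0 := by
    obtain ⟨w, rfl⟩ := mem_YY.mp hy
    have h1 : ∀ i, ρ (b ^ i) (ρ b w - w) = ρ (b ^ (i + 1)) w - ρ (b ^ i) w := by
      intro i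
      rw [map_sub, ← mul_ap, ← pow_succ]
    simp only [h1]
    rw [Finset.sum_range_sub (fun i => ρ (b ^ i) w), pow_orderOf_eq_one, pow_zero, sub_self]
  have hsumx : ∑ i ∈ Finset.range (orderOf b), ρ (b ^ i) x = (orderOf b : F) • x := by
    rw [Finset.sum_congr rfl fun i _ => pow_fix (mem_XX.mp hx) i, Finset.sum_const, Finset.card_range, Nat.cast_smul_eq_nsmul]
  have h2 : (orderOf b : F) • x ∈ U := by
    rw [← hsumx, ← add_zero (∑ i ∈ Finset.range (orderOf b), ρ (b ^ i) x), ← hsum, ← Finset.sum_add_distrib]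
    refine Submodule.sum_mem _ fun i _ => ?_
    rw [← map_add]
    exact hpow i _ hxy
  have h3 : x ∈ U := (Submodule.smul_mem_iff U hc).mp h2
  refine ⟨h3, ?_⟩
  have h4 : y = (x + y) - x := by abel
  rw [h4]
  exact U.sub_mem hxy h3

/-- a plane is spanned by two independent vectors -/
theorem plane_span {U : Submodule F V} (hU : finrank F U = 2) {x y : V} (hx : x ∈ U) (hy : y ∈ U)
    (hxy : LinearIndependent F ![x, y]) {v : V} (hv : v ∈ U) : ∃ α β : F, v = α • x + β • y := by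
  have h1 : Submodule.span F {x, y} = U := by
    apply Submodule.eq_of_le_of_finrank_eq
    · rw [Submodule.span_le]
      rintro z (rfl | rfl)
      · exact hx
      · exact hy
    · have h2 := finrank_span_eq_card hxy
      have h3 : Set.range ![x, y] = {x, y} := by simp [Set.pair_comm]
      rw [Fintype.card_fin, h3] at h2
      rw [hU]
      exact h2
  rw [← h1, Submodule.mem_span_pair] at hv
  obtain ⟨α, β, h⟩ := hv
  exact ⟨α, β, h.symm⟩

theorem indep_orth {x y : V} (hx : f x x ≠ 0) (hy : y ≠ 0) (hxy : f x y = 0) :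
    LinearIndependent F ![x, y] := by
  rw [LinearIndependent.pair_iff]
  intro s t hst
  have h1 : s = 0 := by
    have h2 := congrArg (f x) hst
    rw [map_add, map_smul, map_smul, hxy, smul_zero, add_zero, map_zero, smul_eq_mul] at h2
    exact (mul_eq_zero.mp h2).resolve_right hx
  refine ⟨h1, ?_⟩
  rw [h1, zero_smul, zero_add] at hst
  exact (smul_eq_zero.mp hst).resolve_right hy

/-- a nondegenerate plane invariant under `b` -/
theorem plane_split (h : Ctx ρ f) {b : G} (hc : (orderOf b : F) ≠ 0) {U : Submodule F V} (hU2 : finrank F U = 2)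
    (hnd : ∀ u ∈ U, (∀ v ∈ U, f v u = 0) → u = 0) (hU : ∀ u ∈ U, ρ b u ∈ U) :
    U ≤ XX ρ b ∨ U ≤ YY ρ b ∨ ∃ y ∈ YY ρ b, y ≠ 0 ∧ ρ b (ρ b y) = y := by
  by_cases hX : ∃ x ∈ U, x ∈ XX ρ b ∧ x ≠ 0
  · by_cases hY : ∃ y ∈ U, y ∈ YY ρ b ∧ y ≠ 0
    · right; right
      obtain ⟨x, hxU, hx, hx0⟩ := hX
      obtain ⟨y, hyU, hy, hy0⟩ := hY
      refine ⟨y, hy, hy0, ?_⟩
      have hxy : f x y = 0 := orth_XY h.iso hx hy
      have hind : LinearIndependent F ![x, y] := by
        rw [LinearIndependent.pair_iff]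
        intro s t hst
        have h1 : s • x = 0 := by
          refine disj_XY hc ((XX ρ b).smul_mem s hx) ?_
          have h2 : s • x = -(t • y) := eq_neg_of_add_eq_zero_left hst
          rw [h2]
          exact (YY ρ b).neg_mem ((YY ρ b).smul_mem t hy)
        have h2 : s = 0 := (smul_eq_zero.mp h1).resolve_right hx0
        rw [h2, zero_smul, zero_add] at hst
        exact ⟨h2, (smul_eq_zero.mp hst).resolve_right hy0⟩
      obtain ⟨α, β, hαβ⟩ := plane_span hU2 hxU hyU hind (hU y hyU)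
      have hby : ρ b y = β • y := by
        have h1 : α • x = 0 := by
          refine disj_XY hc ((XX ρ b).smul_mem α hx) ?_
          have h2 : α • x = ρ b y - β • y := by rw [hαβ]; abel
          rw [h2]
          exact (YY ρ b).sub_mem (pres_YY (Or.inl (by group)) hy) ((YY ρ b).smul_mem β hy)
        rw [hαβ, h1, zero_add]
      have hyy : f y y ≠ 0 := by
        intro h0
        apply hy0
        apply hnd y hyU
        intro v hv
        obtain ⟨γ, δ, rfl⟩ := plane_span hU2 hxU hyU hind hv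
        rw [map_add, LinearMap.add_apply, map_smul, map_smul, LinearMap.smul_apply, LinearMap.smul_apply, hxy, h0,
          smul_zero, smul_zero, add_zero]
      have hββ : β * β = 1 := by
        have h1 := h.iso b y y
        rw [hby, map_smul, map_smul, LinearMap.smul_apply, smul_eq_mul, smul_eq_mul, ← mul_assoc] at h1
        exact mul_right_cancel₀ hyy (by rw [h1, one_mul])
      rw [hby, map_smul, hby, smul_smul, hββ, one_smul]
    · left
      intro u hu
      obtain ⟨x, hx, y, hy, rfl⟩ := exists_XY (ρ := ρ) hc u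
      obtain ⟨-, hyU⟩ := comp_mem hc hU hx hy hu
      have h1 : y = 0 := by
        by_contra h0
        exact hY ⟨y, hyU, hy, h0⟩
      rw [h1, add_zero]
      exact hx
  · right; left
    intro u hu
    obtain ⟨x, hx, y, hy, rfl⟩ := exists_XY (ρ := ρ) hc u
    obtain ⟨hxU, -⟩ := comp_mem hc hU hx hy hu
    have h1 : x = 0 := by
      by_contra h0
      exact hX ⟨x, hxU, hx, h0⟩
    rw [h1, zero_add]
    exact hy

/-- odd version -/
theorem plane_split_odd (h : Ctx ρ f) {b : G} (hc : (orderOf b : F) ≠ 0) (ho : Odd (orderOf b)) {U : Submodule F V}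
    (hU2 : finrank F U = 2) (hnd : ∀ u ∈ U, (∀ v ∈ U, f v u = 0) → u = 0) (hU : ∀ u ∈ U, ρ b u ∈ U) :
    U ≤ XX ρ b ∨ U ≤ YY ρ b := by
  rcases plane_split h hc hU2 hnd hU with h1 | h1 | ⟨y, hy, hy0, hyy⟩
  · exact Or.inl h1
  · exact Or.inr h1
  · exact absurd (disj_XY hc (mem_XX.mpr (fix_of_sq ho hyy)) hy) hy0

/-- `Rot a`: `a` has odd order (prime to the characteristic) and `dim [V,a] = 2` -/
structure Rot (ρ : Representation F G V) (a : G) : Prop where
  hc : (orderOf a : F) ≠ 0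
  odd : Odd (orderOf a)
  two : finrank F (YY ρ a) = 2

theorem Rot.conj {a : G} (ha : Rot ρ a) (g : G) : Rot ρ (g * a * g⁻¹) := by
  have h1 : orderOf (g * a * g⁻¹) = orderOf a := by
    have h2 := (MulAut.conj g).orderOf_eq a
    rwa [MulAut.conj_apply] at h2
  exact ⟨by rw [h1]; exact ha.hc, by rw [h1]; exact ha.odd, by rw [finrank_YY_conj]; exact ha.two⟩

theorem Rot.nd (h : Ctx ρ f) {a : G} (ha : Rot ρ a) : ∀ u ∈ YY ρ a, (∀ v ∈ YY ρ a, f v u = 0) → u = 0 :=
  fun _ hu h0 => nd_YY h ha.hc hu h0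

/-- rotations preserving a plane -/
theorem Rot.plane (h : Ctx ρ f) {b : G} (hb : Rot ρ b) {U : Submodule F V}
    (hU2 : finrank F U = 2) (hnd : ∀ u ∈ U, (∀ v ∈ U, f v u = 0) → u = 0) (hU : ∀ u ∈ U, ρ b u ∈ U) :
    U ≤ XX ρ b ∨ U = YY ρ b := by
  rcases plane_split_odd h hb.hc hb.odd hU2 hnd hU with h1 | h1
  · exact Or.inl h1
  · exact Or.inr (Submodule.eq_of_le_of_finrank_eq h1 (by rw [hU2, hb.two]))

theorem pres_of_comm {a b : G} (hab : a * b = b * a) {u : V} (hu : u ∈ YY ρ a) : ρ b u ∈ YY ρ a :=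
  pres_YY (Or.inl (by rw [← hab, mul_inv_cancel_right])) hu

/-- commuting rotations -/
theorem Rot.pair (h : Ctx ρ f) {a b : G} (ha : Rot ρ a) (hb : Rot ρ b) (hab : a * b = b * a) :
    YY ρ a ≤ XX ρ b ∨ YY ρ a = YY ρ b :=
  hb.plane h ha.two (ha.nd h) fun _ hu => pres_of_comm hab hu

theorem orth_symm (h : Ctx ρ f) {a b : G} (hca : (orderOf a : F) ≠ 0) (hab : YY ρ a ≤ XX ρ b) : YY ρ b ≤ XX ρ a := by
  intro y hy
  rw [mem_XX_iff h hca]
  intro y' hy'
  exact orth_XY h.iso (hab hy') hy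

theorem comm_of_orth (h : Ctx ρ f) {a b : G} (hca : (orderOf a : F) ≠ 0) (hab : YY ρ a ≤ XX ρ b) : a * b = b * a := by
  have hba := orth_symm h hca hab
  apply h.inj
  apply LinearMap.ext
  intro v
  rw [mul_ap, mul_ap]
  have h1 : ρ b (ρ a v - v) = ρ a v - v := mem_XX.mp (hab ⟨v, rfl⟩)
  have h2 : ρ a (ρ b v - v) = ρ b v - v := mem_XX.mp (hba ⟨v, rfl⟩)
  rw [map_sub, sub_eq_iff_eq_add] at h1 h2
  rw [h1, h2]
  abel

/-! ### Skew maps -/

/-- skew maps with image in `U` -/
structure Sk (f : V →ₗ[F] V →ₗ[F] F) (U : Submodule F V) (K : Module.End F V) : Prop where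
  skew : ∀ u v, f (K u) v = -f u (K v)
  mem : ∀ v, K v ∈ U

theorem Sk.orth (h : Ctx ρ f) {U : Submodule F V} {K : Module.End F V} (hK : Sk f U K) {v : V}
    (hv : ∀ u ∈ U, f v u = 0) : K v = 0 := by
  apply h.nd
  intro w
  rw [hK.skew, hv _ (hK.mem w), neg_zero]

theorem Sk.self (h : Ctx ρ f) {U : Submodule F V} {K : Module.End F V} (hK : Sk f U K) (v : V) : f v (K v) = 0 := by
  have h1 := hK.skew v v
  rw [h.sym (K v) v] at h1
  have h2 : (2 : F) * f v (K v) = 0 := by linear_combination h1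
  exact (mul_eq_zero.mp h2).resolve_left h.two

theorem exists_aniso (h : Ctx ρ f) {U : Submodule F V} (hU2 : finrank F U = 2)
    (hnd : ∀ u ∈ U, (∀ v ∈ U, f v u = 0) → u = 0) : ∃ u ∈ U, f u u ≠ 0 := by
  by_contra hcon
  push Not at hcon
  have h1 : U = ⊥ := by
    rw [eq_bot_iff]
    intro u hu
    refine (Submodule.mem_bot F).mpr (hnd u hu fun v hv => ?_)
    have e1 := hcon _ (U.add_mem hv hu)
    rw [map_add, map_add, LinearMap.add_apply, LinearMap.add_apply, hcon v hv, hcon u hu, h.sym u v] at e1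
    have e2 : (2 : F) * f v u = 0 := by linear_combination e1
    exact (mul_eq_zero.mp e2).resolve_left h.two
  rw [h1, finrank_bot] at hU2
  omega

/-- the basis `u, K u` -/
theorem Sk.basis (h : Ctx ρ f) {U : Submodule F V} (hU2 : finrank F U = 2)
    (hnd : ∀ u ∈ U, (∀ v ∈ U, f v u = 0) → u = 0) (hcompl : ∀ v, ∃ x u, u ∈ U ∧ (∀ w ∈ U, f x w = 0) ∧ v = x + u)
    {K : Module.End F V} (hK : Sk f U K) (hK0 : K ≠ 0) {u : V} (hu : u ∈ U) (huu : f u u ≠ 0) :
    LinearIndependent F ![u, K u] := by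
  refine indep_orth huu ?_ (hK.self h u)
  intro h0
  apply hK0
  apply LinearMap.ext
  intro v
  obtain ⟨x, w, hw, hx, rfl⟩ := hcompl v
  rw [map_add, hK.orth h hx, zero_add, LinearMap.zero_apply]
  -- `K w = 0`
  apply hnd _ (hK.mem w)
  by_cases hw0 : LinearIndependent F ![u, w]
  · intro v hv
    obtain ⟨α, β, rfl⟩ := plane_span hU2 hu hw hw0 hv
    rw [map_add, LinearMap.add_apply, map_smul, map_smul, LinearMap.smul_apply, LinearMap.smul_apply, hK.self h w,
      h.sym u, hK.skew, h0, map_zero, neg_zero, smul_zero, smul_zero, add_zero]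
  · intro v _
    have h1 : ∃ c : F, w = c • u := by
      by_contra hcon
      apply hw0
      rw [LinearIndependent.pair_iff]
      intro s t hst
      have ht : t = 0 := by
        by_contra ht
        apply hcon
        refine ⟨-(t⁻¹ * s), ?_⟩
        have h2 : t • w = -(s • u) := (neg_eq_of_add_eq_zero_right hst).symm
        have h3 : w = t⁻¹ • (t • w) := by rw [smul_smul, inv_mul_cancel₀ ht, one_smul]
        rw [h3, h2]
        module
      rw [ht, zero_smul, add_zero] at hst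
      refine ⟨(smul_eq_zero.mp hst).resolve_right ?_, ht⟩
      rintro rfl
      exact huu (by rw [map_zero])
    obtain ⟨c, rfl⟩ := h1
    rw [map_smul, h0, smul_zero, map_zero]

/-- skew maps of a plane are proportional -/
theorem Sk.unique (h : Ctx ρ f) {U : Submodule F V} (hU2 : finrank F U = 2)
    (hnd : ∀ u ∈ U, (∀ v ∈ U, f v u = 0) → u = 0) (hcompl : ∀ v, ∃ x u, u ∈ U ∧ (∀ w ∈ U, f x w = 0) ∧ v = x + u)
    {K K' : Module.End F V} (hK : Sk f U K) (hK0 : K ≠ 0) (hK' : Sk f U K') : ∃ s : F, K' = s • K := by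
  obtain ⟨u, hu, huu⟩ := exists_aniso h hU2 hnd
  have hind := Sk.basis h hU2 hnd hcompl hK hK0 hu huu
  obtain ⟨α, s, hs⟩ := plane_span hU2 hu (hK.mem u) hind (hK'.mem u)
  have hα : α = 0 := by
    have h1 := hK'.self h u
    rw [hs, map_add, map_smul, map_smul, hK.self h u, smul_zero, add_zero, smul_eq_mul] at h1
    exact (mul_eq_zero.mp h1).resolve_right huu
  rw [hα, zero_smul, zero_add] at hs
  refine ⟨s, ?_⟩
  apply LinearMap.ext
  intro v
  obtain ⟨x, w, hw, hx, rfl⟩ := hcompl v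
  rw [map_add, LinearMap.smul_apply, map_add, hK.orth h hx, hK'.orth h hx, zero_add, zero_add]
  obtain ⟨β, γ, rfl⟩ := plane_span hU2 hu (hK.mem u) hind hw
  have key : K' (K u) = s • K (K u) := by
    rw [← sub_eq_zero]
    apply hnd _ (U.sub_mem (hK'.mem _) (U.smul_mem _ (hK.mem _)))
    intro v hv
    obtain ⟨δ, ε, rfl⟩ := plane_span hU2 hu (hK.mem u) hind hv
    have e1 : f u (K' (K u)) = -(s * f (K u) (K u)) := by
      have h1 := hK'.skew u (K u)
      rw [hs, map_smul, LinearMap.smul_apply, smul_eq_mul] at h1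
      rw [h1, neg_neg]
    have e2 : f (K u) (K' (K u)) = 0 := hK'.self h _
    have e3 : f u (K (K u)) = -(f (K u) (K u)) := by
      have h1 := hK.skew u (K u)
      rw [h1, neg_neg]
    have e4 : f (K u) (K (K u)) = 0 := hK.self h _
    simp only [map_add, map_sub, map_smul, LinearMap.add_apply, LinearMap.smul_apply, smul_eq_mul, e1, e2, e3, e4]
    ring
  rw [map_add, map_smul, map_smul, hs, key, map_add, map_smul, map_smul]
  module

end Cfsg.Agent.H556.Over
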