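import Cfsg.Agent.H556.OverA

/-!
# S3849, orthogonal groups (helper556), part B: commuting rotations, generation by rotations, elements of order four
-/

set_option autoImplicit false
set_option linter.unusedSectionVars false

namespace Cfsg.Agent.H556.Over

open Module Cfsg.Agent.H556.Om Cfsg.Agent.H167.OP Cfsg.Agent.H556.OddCore

variable {F : Type*} [Field F] {V : Type*} [AddCommGroup V] [Module F V] [FiniteDimensional F V]
  {f : V →ₗ[F] V →ₗ[F] F} {G : Type*} [Group G] {ρ : Representation F G V}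

/-- `a - a⁻¹` -/
def Sa (ρ : Representation F G V) (a : G) : Module.End F V := ρ a - ρ a⁻¹

theorem Sa_apply (a : G) (v : V) : Sa ρ a v = ρ a v - ρ a⁻¹ v := rfl

theorem Sa_mem (a : G) (v : V) : Sa ρ a v ∈ YY ρ a := by
  have h1 : Sa ρ a v = (ρ a (ρ a (ρ a⁻¹ v)) - ρ a (ρ a⁻¹ v)) + (ρ a (ρ a⁻¹ v) - ρ a⁻¹ v) := by
    rw [Sa_apply, ap_inv]
    abel
  rw [h1]
  exact (YY ρ a).add_mem ⟨_, rfl⟩ ⟨_, rfl⟩

theorem Sa_eq_zero {a : G} (ho : Odd (orderOf a)) {v : V} (h0 : Sa ρ a v = 0) : v ∈ XX ρ a := by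
  rw [mem_XX]
  rw [Sa_apply, sub_eq_zero] at h0
  exact fix_of_sq ho (by rw [h0, ap_inv])

theorem Sa_sk (h : Ctx ρ f) (a : G) : Sk f (YY ρ a) (Sa ρ a) where
  skew u v := by
    rw [Sa_apply, Sa_apply, map_sub, map_sub, LinearMap.sub_apply]
    have e1 : f (ρ a u) v = f u (ρ a⁻¹ v) := by
      rw [← h.iso a u (ρ a⁻¹ v), ap_inv]
    have e2 : f (ρ a⁻¹ u) v = f u (ρ a v) := by
      rw [← h.iso a (ρ a⁻¹ u) v, ap_inv]
    rw [e1, e2]
    ring
  mem v := Sa_mem a v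

theorem Rot.Sa_ne {a : G} (ha : Rot ρ a) : Sa ρ a ≠ 0 := by
  intro h0
  have h1 : YY ρ a = ⊥ := by
    rw [eq_bot_iff]
    intro v hv
    exact (Submodule.mem_bot F).mpr (disj_XY ha.hc (Sa_eq_zero ha.odd (by rw [h0]; rfl)) hv)
  have h2 := ha.two
  rw [h1, finrank_bot] at h2
  omega

theorem compl_YY (h : Ctx ρ f) {a : G} (hc : (orderOf a : F) ≠ 0) :
    ∀ v, ∃ x u, u ∈ YY ρ a ∧ (∀ w ∈ YY ρ a, f x w = 0) ∧ v = x + u := by
  intro v
  obtain ⟨x, hx, y, hy, hv⟩ := exists_XY (ρ := ρ) hc v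
  exact ⟨x, y, hy, fun w hw => orth_XY h.iso hx hw, hv⟩

/-- skew maps of the plane of a rotation -/
theorem Rot.sk_eq (h : Ctx ρ f) {a : G} (ha : Rot ρ a) {K : Module.End F V} (hK : Sk f (YY ρ a) K) :
    ∃ s : F, K = s • Sa ρ a :=
  Sk.unique h ha.two (ha.nd h) (compl_YY h ha.hc) (Sa_sk h a) ha.Sa_ne hK

/-- an isometry which commutes with `a - a⁻¹` commutes with `a` -/
theorem Rot.comm_of_sa (h : Ctx ρ f) {a : G} (ha : Rot ρ a) {y : G}
    (hy : ∀ v, ρ y (Sa ρ a v) = Sa ρ a (ρ y v)) : y * a = a * y := by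
  obtain ⟨u, hu, huu⟩ := exists_aniso h ha.two (ha.nd h)
  have hind := Sk.basis h ha.two (ha.nd h) (compl_YY h ha.hc) (Sa_sk h a) ha.Sa_ne hu huu
  obtain ⟨α, β, hαβ⟩ := plane_span ha.two hu (Sa_mem a u) hind (pres_of_comm (b := a) rfl hu)
  have haS : ∀ v, ρ a (Sa ρ a v) = Sa ρ a (ρ a v) := by
    intro v
    rw [Sa_apply, Sa_apply, map_sub, ap_inv, inv_ap]
  have key : ∀ w ∈ YY ρ a, ρ a w = α • w + β • Sa ρ a w := by
    intro w hw
    obtain ⟨γ, δ, rfl⟩ := plane_span ha.two hu (Sa_mem a u) hind hw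
    rw [map_add, map_smul, map_smul, haS, hαβ, map_add, map_add, map_smul, map_smul, map_smul, map_smul]
    module
  have hyX : ∀ z : G, (∀ v, ρ z (Sa ρ a v) = Sa ρ a (ρ z v)) → ∀ x ∈ XX ρ a, ρ z x ∈ XX ρ a := by
    intro z hz x hx
    apply Sa_eq_zero ha.odd
    rw [← hz]
    have h1 : Sa ρ a x = 0 := by
      rw [Sa_apply, mem_XX.mp hx, inv_XX (mem_XX.mp hx), sub_self]
    rw [h1, map_zero]
  have hyinv : ∀ v, ρ y⁻¹ (Sa ρ a v) = Sa ρ a (ρ y⁻¹ v) := by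
    intro v
    have h1 := hy (ρ y⁻¹ v)
    rw [ap_inv] at h1
    rw [← h1, inv_ap]
  have hyY : ∀ w ∈ YY ρ a, ρ y w ∈ YY ρ a := by
    intro w hw
    rw [mem_YY_iff' h ha.hc]
    intro x hx
    have h1 : f x (ρ y w) = f (ρ y⁻¹ x) w := by
      rw [← h.iso y (ρ y⁻¹ x) w, ap_inv]
    rw [h1]
    exact orth_XY h.iso (hyX _ hyinv x hx) hw
  apply h.inj
  apply LinearMap.ext
  intro v
  obtain ⟨x, hx, w, hw, rfl⟩ := exists_XY (ρ := ρ) ha.hc v
  rw [mul_ap, mul_ap, map_add, map_add, map_add, map_add, mem_XX.mp hx, mem_XX.mp (hyX y hy x hx), key w hw,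
    key _ (hyY w hw), map_add, map_smul, map_smul, hy]

theorem Rot.sa_comm {a : G} {b : G} (hab : b * a = a * b) (v : V) : ρ b (Sa ρ a v) = Sa ρ a (ρ b v) := by
  have h1 : b * a⁻¹ = a⁻¹ * b := by
    calc b * a⁻¹ = a⁻¹ * (a * b) * a⁻¹ := by group
      _ = a⁻¹ * (b * a) * a⁻¹ := by rw [hab]
      _ = a⁻¹ * b := by group
  rw [Sa_apply, Sa_apply, map_sub, ← mul_ap, ← mul_ap, ← mul_ap, ← mul_ap, hab, h1]

/-- rotations of the same plane: what commutes with one commutes with the other -/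
theorem Rot.transfer (h : Ctx ρ f) {a b : G} (ha : Rot ρ a) (hb : Rot ρ b) (hab : YY ρ a = YY ρ b) {y : G}
    (hy : y * a = a * y) : y * b = b * y := by
  apply hb.comm_of_sa h
  obtain ⟨s, hs⟩ := ha.sk_eq h (K := Sa ρ b) (by rw [hab]; exact Sa_sk h b)
  intro v
  rw [hs, LinearMap.smul_apply, LinearMap.smul_apply, map_smul, Rot.sa_comm hy]

theorem Rot.comm (h : Ctx ρ f) {a b : G} (ha : Rot ρ a) (hb : Rot ρ b) (hab : YY ρ a = YY ρ b) :
    a * b = b * a :=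
  ha.transfer h hb hab rfl

/-- the rotations of an abelian group and a rotation group preserving their planes -/
theorem Rot.comm' (h : Ctx ρ f) {a b : G} (ha : Rot ρ a) (hb : Rot ρ b) (hp : ∀ u ∈ YY ρ a, ρ b u ∈ YY ρ a) :
    a * b = b * a := by
  rcases hb.plane h ha.two (ha.nd h) hp with h1 | h1
  · exact comm_of_orth h ha.hc h1
  · exact ha.comm h hb h1

/-! ### Elements of order four -/

/-- `z² = -1` on `[V,z]` -/
structure Four (ρ : Representation F G V) (z : G) : Prop where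
  hc : (orderOf z : F) ≠ 0
  neg : ∀ v ∈ YY ρ z, ρ z (ρ z v) = -v

theorem Four.conj {z : G} (hz : Four ρ z) (g : G) : Four ρ (g * z * g⁻¹) := by
  have h1 : orderOf (g * z * g⁻¹) = orderOf z := by
    have h2 := (MulAut.conj g).orderOf_eq z
    rwa [MulAut.conj_apply] at h2
  refine ⟨by rw [h1]; exact hz.hc, ?_⟩
  intro v hv
  rw [YY_map] at hv
  obtain ⟨w, hw, rfl⟩ := hv
  have h2 : ∀ w, ρ (g * z * g⁻¹) (ρ g w) = ρ g (ρ z w) := by
    intro w
    rw [← mul_ap, inv_mul_cancel_right, mul_ap]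
  rw [h2, h2, hz.neg w hw, map_neg]

/-- **lemma Z** -/
theorem Four.plane (h : Ctx ρ f) {z : G} (hz : Four ρ z) {A : Subgroup G} (hab : ∀ a ∈ A, ∀ b ∈ A, a * b = b * a)
    (hzA : ∀ a ∈ A, z * a * z⁻¹ ∈ A) {a : G} (haA : a ∈ A) (ha : Rot ρ a) : YY ρ a ≤ YY ρ z ∨ YY ρ a ≤ XX ρ z := by
  have hsplit : ∀ u, ∃ x ∈ XX ρ z, ∃ y ∈ YY ρ z, u = x + y ∧ ρ z (ρ z u) = x - y := by
    intro u
    obtain ⟨x, hx, y, hy, rfl⟩ := exists_XY (ρ := ρ) hz.hc u
    refine ⟨x, hx, y, hy, rfl, ?_⟩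
    rw [map_add, map_add, mem_XX.mp hx, mem_XX.mp hx, hz.neg y hy]
    abel
  set a₁ := z * a * z⁻¹ with ha₁
  set a₂ := z * a₁ * z⁻¹ with ha₂
  set a₃ := z * a₂ * z⁻¹ with ha₃
  have hr₁ : Rot ρ a₁ := ha.conj z
  have hr₂ : Rot ρ a₂ := hr₁.conj z
  have hr₃ : Rot ρ a₃ := hr₂.conj z
  have hA₁ : a₁ ∈ A := hzA a haA
  have hA₂ : a₂ ∈ A := hzA _ hA₁
  have hA₃ : a₃ ∈ A := hzA _ hA₂
  rcases hr₁.pair h ha (hab _ hA₁ _ haA) with hor | heq
  · -- orthogonal planes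
    left
    have e01 : ∀ u ∈ YY ρ a, ∀ v ∈ YY ρ a₁, f u v = 0 := fun u hu v hv => by
      rw [h.sym]; exact orth_XY h.iso (hor hv) hu
    have himg : ∀ {b : G} {u : V}, u ∈ YY ρ (z * b * z⁻¹) → ∃ w ∈ YY ρ b, ρ z w = u := by
      intro b u hu
      rw [YY_map] at hu
      exact hu
    have e12 : ∀ u ∈ YY ρ a₁, ∀ v ∈ YY ρ a₂, f u v = 0 := by
      intro u hu v hv
      obtain ⟨u', hu', rfl⟩ := himg hu
      obtain ⟨v', hv', rfl⟩ := himg hv
      rw [h.iso]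
      exact e01 u' hu' v' hv'
    have e23 : ∀ u ∈ YY ρ a₂, ∀ v ∈ YY ρ a₃, f u v = 0 := by
      intro u hu v hv
      obtain ⟨u', hu', rfl⟩ := himg hu
      obtain ⟨v', hv', rfl⟩ := himg hv
      rw [h.iso]
      exact e12 u' hu' v' hv'
    have hz4 : ∀ v, ρ z (ρ z (ρ z (ρ z v))) = v := by
      intro v
      obtain ⟨x, hx, y, hy, rfl, -⟩ := hsplit v
      simp only [map_add, mem_XX.mp hx]
      rw [hz.neg y hy, map_neg, map_neg, hz.neg y hy, neg_neg]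
    have e30 : ∀ u ∈ YY ρ a₃, ∀ v ∈ YY ρ a, f u v = 0 := by
      intro u hu v hv
      obtain ⟨u₂, hu₂, rfl⟩ := himg hu
      -- `v = z (z (z (z v)))`
      have h1 : ρ z (ρ z (ρ z v)) ∈ YY ρ a₃ := YY_conj (YY_conj (YY_conj hv))
      rw [← hz4 v, h.iso]
      exact e23 _ hu₂ _ h1
    intro u hu
    obtain ⟨x, hx, y, hy, hxy, hzu⟩ := hsplit u
    have hu1 : ρ z u ∈ YY ρ a₁ := YY_conj hu
    have hu2 : ρ z (ρ z u) ∈ YY ρ a₂ := YY_conj hu1
    have hu3 : ρ z (ρ z (ρ z u)) ∈ YY ρ a₃ := YY_conj hu2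
    set s := (2 : F) • x with hs
    have hs1 : s = u + ρ z (ρ z u) := by
      rw [hzu, hxy, hs]
      module
    have hs2 : s = ρ z u + ρ z (ρ z (ρ z u)) := by
      have h1 : ρ z s = s := by rw [hs, map_smul, mem_XX.mp hx]
      rw [← h1, hs1, map_add]
    have hs0 : s = 0 := by
      have hP : ∀ v ∈ YY ρ a, f v s = 0 := by
        intro v hv
        rw [hs2, map_add, e01 v hv _ hu1, h.sym v, e30 _ hu3 v hv, add_zero]
      rcases ha.pair h hr₂ (hab _ haA _ hA₂) with h2 | h2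
      · -- `u = 0`
        have hu0 : u = 0 := by
          apply ha.nd h u hu
          intro v hv
          have h3 := hP v hv
          rw [hs1, map_add] at h3
          have h4 : f v (ρ z (ρ z u)) = 0 := orth_XY h.iso (h2 hv) hu2
          rw [h4, add_zero] at h3
          exact h3
        rw [hs1, hu0]
        simp
      · apply ha.nd h s _ hP
        rw [hs1]
        refine (YY ρ a).add_mem hu ?_
        rw [h2]
        exact hu2
    have hx0 : x = 0 := (smul_eq_zero.mp (hs.symm.trans hs0)).resolve_left h.two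
    rw [hxy, hx0, zero_add]
    exact hy
  · -- invariant plane
    have hinv : ∀ u ∈ YY ρ a, ρ z u ∈ YY ρ a := fun u hu => by
      rw [← heq]; exact YY_conj hu
    rcases plane_split h hz.hc ha.two (ha.nd h) hinv with h1 | h1 | ⟨y, hy, hy0, hyy⟩
    · exact Or.inr h1
    · exact Or.inl h1
    · exfalso
      rw [hz.neg y hy] at hyy
      have h1 : (2 : F) • y = 0 := by
        rw [two_smul]
        nth_rewrite 1 [← hyy]
        exact neg_add_cancel y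
      exact hy0 ((smul_eq_zero.mp h1).resolve_left h.two)

/-- so `A` preserves `[V,z]` -/
theorem Four.pres (h : Ctx ρ f) {z : G} (hz : Four ρ z) {A : Subgroup G} (hab : ∀ a ∈ A, ∀ b ∈ A, a * b = b * a)
    (hzA : ∀ a ∈ A, z * a * z⁻¹ ∈ A) {a : G} (haA : a ∈ A) (ha : Rot ρ a) :
    ∀ v ∈ YY ρ z, ρ a v ∈ YY ρ z := by
  intro v hv
  have h1 : ρ a v = v + (ρ a v - v) := by abel
  rcases hz.plane h hab hzA haA ha with h2 | h2
  · rw [h1]
    exact (YY ρ z).add_mem hv (h2 ⟨v, rfl⟩)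
  · rw [mem_XX.mp (orth_symm h ha.hc h2 hv)]
    exact hv

end Cfsg.Agent.H556.Over
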