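import Cfsg.Agent.H556.OverB

/-!
# S3849, orthogonal groups (helper556), part C: the commuting theorem, generation by eigenelements
-/

set_option autoImplicit false
set_option linter.unusedSectionVars false

namespace Cfsg.Agent.H556.Over

open Module Cfsg.Agent.H556.Om Cfsg.Agent.H167.OP Cfsg.Agent.H556.OddCore

section Comm

variable {F : Type*} [Field F] {V : Type*} [AddCommGroup V] [Module F V] [FiniteDimensional F V]
  {f : V →ₗ[F] V →ₗ[F] F} {G : Type*} [Group G] {ρ : Representation F G V}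

theorem pres_inv [Finite G] {b : G} {U : Submodule F V} (hU : ∀ u ∈ U, ρ b u ∈ U) : ∀ u ∈ U, ρ b⁻¹ u ∈ U := by
  have hpow : ∀ n : ℕ, ∀ u ∈ U, ρ (b ^ n) u ∈ U := by
    intro n
    induction n with
    | zero => intro u hu; rwa [pow_zero, one_ap]
    | succ n ih => intro u hu; rw [pow_succ, mul_ap]; exact ih _ (hU u hu)
  intro u hu
  have h1 : b⁻¹ = b ^ (orderOf b - 1) := by
    rw [inv_eq_iff_mul_eq_one, ← pow_succ', Nat.sub_add_cancel (orderOf_pos b), pow_orderOf_eq_one]
  rw [h1]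
  exact hpow _ u hu

/-- `A` is generated by rotations -/
def RGen (ρ : Representation F G V) (A : Subgroup G) : Prop := A ≤ Subgroup.closure {a | a ∈ A ∧ Rot ρ a}

theorem RGen.conj {A : Subgroup G} (hA : RGen ρ A) (g : G) : RGen ρ (A.map (MulAut.conj g).toMonoidHom) := by
  rintro _ ⟨a, ha, rfl⟩
  have h1 := hA ha
  have h2 : (MulAut.conj g).toMonoidHom a ∈
      (Subgroup.closure {a | a ∈ A ∧ Rot ρ a}).map (MulAut.conj g).toMonoidHom := ⟨a, h1, rfl⟩
  rw [MonoidHom.map_closure] at h2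
  refine Subgroup.closure_mono ?_ h2
  rintro _ ⟨b, ⟨hb, hr⟩, rfl⟩
  exact ⟨⟨b, hb, rfl⟩, hr.conj g⟩

theorem comm_closure {S T : Set G} (h : ∀ s ∈ S, ∀ t ∈ T, s * t = t * s) :
    ∀ s ∈ Subgroup.closure S, ∀ t ∈ Subgroup.closure T, s * t = t * s := by
  have h1 : Subgroup.closure T ≤ Subgroup.centralizer S := by
    rw [Subgroup.closure_le]
    intro t ht
    rw [SetLike.mem_coe, Subgroup.mem_centralizer_iff]
    exact fun s hs => h s hs t ht
  have h2 : Subgroup.closure S ≤ Subgroup.centralizer (Subgroup.closure T : Set G) := by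
    rw [Subgroup.closure_le]
    intro s hs
    rw [SetLike.mem_coe, Subgroup.mem_centralizer_iff]
    exact fun t ht => (Subgroup.mem_centralizer_iff.mp (h1 ht) s hs).symm
  exact fun s hs t ht => (Subgroup.mem_centralizer_iff.mp (h2 hs) t ht).symm

variable {K : Type*} [Fintype K]

/-- **the commuting theorem** -/
theorem comm_main [Finite G] (h : Ctx ρ f) {A A' : Subgroup G} (hA : ∀ a ∈ A, ∀ b ∈ A, a * b = b * a) (hgA : RGen ρ A)
    (hA' : ∀ a ∈ A', ∀ b ∈ A', a * b = b * a) (hgA' : RGen ρ A') (hK : 3 ≤ Fintype.card K) {x : K → G}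
    (hx : ∀ i, x i ∈ A) (hxr : ∀ i, Rot ρ (x i)) (hxo : ∀ i j, i ≠ j → YY ρ (x i) ≤ XX ρ (x j))
    (hdim : finrank F (⨅ i, XX ρ (x i) : Submodule F V) ≤ 2) {z : K → K → G}
    (hz : ∀ i j, i ≠ j → Four ρ (z i j)) (hzY : ∀ i j, i ≠ j → YY ρ (z i j) = YY ρ (x i) ⊔ YY ρ (x j))
    (hzA : ∀ i j, i ≠ j → ∀ a ∈ A', z i j * a * (z i j)⁻¹ ∈ A') : ∀ a ∈ A, ∀ b ∈ A', a * b = b * a := by
  classical
  have hthree : ∀ i : K, ∃ j k, i ≠ j ∧ i ≠ k ∧ j ≠ k := by
    intro i
    have h1 : 2 ≤ (Finset.univ.erase i).card := by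
      rw [Finset.card_erase_of_mem (Finset.mem_univ i), Finset.card_univ]
      omega
    obtain ⟨j, hj, k, hk, hjk⟩ := Finset.one_lt_card.mp h1
    exact ⟨j, k, (Finset.mem_erase.mp hj).1.symm, (Finset.mem_erase.mp hk).1.symm, hjk⟩
  -- rotations of `A'` preserve the planes of the `x i`
  have hpres : ∀ b ∈ A', Rot ρ b → ∀ i, ∀ u ∈ YY ρ (x i), ρ b u ∈ YY ρ (x i) := by
    intro b hb hbr i u hu
    obtain ⟨j, k, hij, hik, hjk⟩ := hthree i
    have h1 : ρ b u ∈ YY ρ (z i j) := (hz i j hij).pres h hA' (hzA i j hij) hb hbr u (by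
      rw [hzY i j hij]; exact Submodule.mem_sup_left hu)
    have h2 : ρ b u ∈ YY ρ (z i k) := (hz i k hik).pres h hA' (hzA i k hik) hb hbr u (by
      rw [hzY i k hik]; exact Submodule.mem_sup_left hu)
    rw [hzY i j hij, Submodule.mem_sup] at h1
    rw [hzY i k hik, Submodule.mem_sup] at h2
    obtain ⟨p, hp, q, hq, hpq⟩ := h1
    obtain ⟨p', hp', q', hq', hpq'⟩ := h2
    have hq0 : q = 0 := by
      apply (hxr j).nd h q hq
      intro v hv
      have h3 : q = q' + p' - p := by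
        rw [add_comm q' p', hpq', ← hpq]
        abel
      rw [h3, map_sub, map_add, orth_XY h.iso (hxo j k hjk hv) hq', orth_XY h.iso (hxo j i hij.symm hv) hp',
        orth_XY h.iso (hxo j i hij.symm hv) hp]
      simp
    rw [← hpq, hq0, add_zero]
    exact hp
  have key : ∀ s ∈ {a | a ∈ A ∧ Rot ρ a}, ∀ t ∈ {a | a ∈ A' ∧ Rot ρ a}, s * t = t * s := by
    rintro a ⟨ha, har⟩ b ⟨hb, hbr⟩
    by_cases hi : ∃ i, YY ρ a = YY ρ (x i)
    · obtain ⟨i, hi⟩ := hi
      refine har.comm' h hbr ?_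
      rw [hi]
      exact hpres b hb hbr i
    · push Not at hi
      have h1 : YY ρ a ≤ ⨅ i, XX ρ (x i) := le_iInf fun i =>
        (har.pair h (hxr i) (hA a ha _ (hx i))).resolve_right (hi i)
      have h2 : YY ρ a = ⨅ i, XX ρ (x i) := by
        refine Submodule.eq_of_le_of_finrank_le h1 ?_
        rw [har.two]
        exact hdim
      refine har.comm' h hbr ?_
      intro u hu
      rw [h2, Submodule.mem_iInf] at hu ⊢
      intro i
      rw [mem_XX_iff h (hxr i).hc]
      intro y hy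
      have h3 : f y (ρ b u) = f (ρ b⁻¹ y) u := by
        rw [← h.iso b (ρ b⁻¹ y) u, ap_inv]
      rw [h3, h.sym]
      exact orth_XY h.iso (hu i) (pres_inv (hpres b hb hbr i) y hy)
  exact fun a ha b hb => comm_closure key a (hgA ha) b (hgA' hb)

end Comm

/-! ### Generation by eigenelements -/

theorem gen_eigen {G : Type*} [Group G] [Finite G] {T : Set G}
    (hTT : ∀ s ∈ T, ∀ t ∈ T, s * t = t * s) (hT2 : ∀ t ∈ T, t * t = 1) (n : ℕ) :
    ∀ A : Subgroup G, Nat.card A = n → (∀ a ∈ A, ∀ b ∈ A, a * b = b * a) → Odd (Nat.card A) →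
      (∀ t ∈ T, ∀ a ∈ A, t * a * t⁻¹ ∈ A) →
      A ≤ Subgroup.closure {a | a ∈ A ∧ ∀ t ∈ T, t * a * t⁻¹ = a ∨ t * a * t⁻¹ = a⁻¹} := by
  induction n using Nat.strong_induction_on with
  | _ n ih =>
    intro A hn hab hodd hTA
    by_cases hall : ∀ t ∈ T, (∀ a ∈ A, t * a * t⁻¹ = a) ∨ (∀ a ∈ A, t * a * t⁻¹ = a⁻¹)
    · intro a ha
      refine Subgroup.subset_closure ⟨ha, fun t ht => ?_⟩
      rcases hall t ht with h | h
      · exact Or.inl (h a ha)
      · exact Or.inr (h a ha)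
    · push Not at hall
      obtain ⟨t, ht, ⟨a₀, ha₀, hat⟩, b₀, hb₀, hbt⟩ := hall
      let C : Subgroup G :=
        { carrier := {x | x ∈ A ∧ t * x * t⁻¹ = x}
          one_mem' := ⟨A.one_mem, by group⟩
          mul_mem' := by
            rintro x y ⟨hx, hx1⟩ ⟨hy, hy1⟩
            refine ⟨A.mul_mem hx hy, ?_⟩
            have : t * (x * y) * t⁻¹ = (t * x * t⁻¹) * (t * y * t⁻¹) := by group
            rw [this, hx1, hy1]
          inv_mem' := by
            rintro x ⟨hx, hx1⟩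
            refine ⟨A.inv_mem hx, ?_⟩
            have : t * x⁻¹ * t⁻¹ = (t * x * t⁻¹)⁻¹ := by group
            rw [this, hx1] }
      let I : Subgroup G :=
        { carrier := {x | x ∈ A ∧ t * x * t⁻¹ = x⁻¹}
          one_mem' := ⟨A.one_mem, by group⟩
          mul_mem' := by
            rintro x y ⟨hx, hx1⟩ ⟨hy, hy1⟩
            refine ⟨A.mul_mem hx hy, ?_⟩
            have : t * (x * y) * t⁻¹ = (t * x * t⁻¹) * (t * y * t⁻¹) := by group
            rw [this, hx1, hy1, mul_inv_rev]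
            exact hab _ (A.inv_mem hx) _ (A.inv_mem hy)
          inv_mem' := by
            rintro x ⟨hx, hx1⟩
            refine ⟨A.inv_mem hx, ?_⟩
            have : t * x⁻¹ * t⁻¹ = (t * x * t⁻¹)⁻¹ := by group
            rw [this, hx1] }
      have hCA : C ≤ A := fun x hx => hx.1
      have hIA : I ≤ A := fun x hx => hx.1
      have hcardC : Nat.card C < n := by
        rw [← hn]
        by_contra hcon
        push Not at hcon
        have h1 := Subgroup.eq_of_le_of_card_ge hCA hcon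
        have h2 : a₀ ∈ C := by rw [h1]; exact ha₀
        exact hat h2.2
      have hcardI : Nat.card I < n := by
        rw [← hn]
        by_contra hcon
        push Not at hcon
        have h1 := Subgroup.eq_of_le_of_card_ge hIA hcon
        have h2 : b₀ ∈ I := by rw [h1]; exact hb₀
        exact hbt h2.2
      have hsw : ∀ s ∈ T, ∀ x, t * (s * x * s⁻¹) * t⁻¹ = s * (t * x * t⁻¹) * s⁻¹ := by
        intro s hs x
        calc t * (s * x * s⁻¹) * t⁻¹ = (t * s) * x * (t * s)⁻¹ := by group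
          _ = (s * t) * x * (s * t)⁻¹ := by rw [hTT t ht s hs]
          _ = s * (t * x * t⁻¹) * s⁻¹ := by group
      have hCl := ih _ hcardC C rfl (fun x hx y hy => hab x hx.1 y hy.1)
        (hodd.of_dvd_nat (Subgroup.card_dvd_of_le hCA)) (by
          intro s hs x hx
          refine ⟨hTA s hs x hx.1, ?_⟩
          rw [hsw s hs, hx.2])
      have hIl := ih _ hcardI I rfl (fun x hx y hy => hab x hx.1 y hy.1)
        (hodd.of_dvd_nat (Subgroup.card_dvd_of_le hIA)) (by
          intro s hs x hx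
          refine ⟨hTA s hs x hx.1, ?_⟩
          rw [hsw s hs, hx.2]
          group)
      have hmC : Subgroup.closure {a | a ∈ C ∧ ∀ t ∈ T, t * a * t⁻¹ = a ∨ t * a * t⁻¹ = a⁻¹} ≤
          Subgroup.closure {a | a ∈ A ∧ ∀ t ∈ T, t * a * t⁻¹ = a ∨ t * a * t⁻¹ = a⁻¹} :=
        Subgroup.closure_mono fun x hx => ⟨hCA hx.1, hx.2⟩
      have hmI : Subgroup.closure {a | a ∈ I ∧ ∀ t ∈ T, t * a * t⁻¹ = a ∨ t * a * t⁻¹ = a⁻¹} ≤
          Subgroup.closure {a | a ∈ A ∧ ∀ t ∈ T, t * a * t⁻¹ = a ∨ t * a * t⁻¹ = a⁻¹} :=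
        Subgroup.closure_mono fun x hx => ⟨hIA hx.1, hx.2⟩
      intro a ha
      set b := t * a * t⁻¹ with hb
      have hbA : b ∈ A := hTA t ht a ha
      have htb : t * b * t⁻¹ = a := by
        calc t * (t * a * t⁻¹) * t⁻¹ = (t * t) * a * (t * t)⁻¹ := by group
          _ = a := by rw [hT2 t ht]; group
      have hc : a * b ∈ C := by
        refine ⟨A.mul_mem ha hbA, ?_⟩
        have : t * (a * b) * t⁻¹ = (t * a * t⁻¹) * (t * b * t⁻¹) := by group
        rw [this, htb, ← hb]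
        exact hab _ hbA _ ha
      have hi : a * b⁻¹ ∈ I := by
        refine ⟨A.mul_mem ha (A.inv_mem hbA), ?_⟩
        have : t * (a * b⁻¹) * t⁻¹ = (t * a * t⁻¹) * (t * b * t⁻¹)⁻¹ := by group
        rw [this, htb, ← hb, mul_inv_rev, inv_inv]
      have haa : a * a = (a * b) * (a * b⁻¹) := by
        calc a * a = a * (b * b⁻¹) * a := by group
          _ = a * (b * (b⁻¹ * a)) := by group
          _ = a * (b * (a * b⁻¹)) := by rw [hab _ (A.inv_mem hbA) _ ha]
          _ = (a * b) * (a * b⁻¹) := by group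
      have h2 : a * a ∈ Subgroup.closure {a | a ∈ A ∧ ∀ t ∈ T, t * a * t⁻¹ = a ∨ t * a * t⁻¹ = a⁻¹} := by
        rw [haa]
        exact Subgroup.mul_mem _ (hmC (hCl hc)) (hmI (hIl hi))
      have ho : Odd (orderOf a) := by
        have h1 : orderOf a ∣ Nat.card A := by
          have := orderOf_dvd_natCard (⟨a, ha⟩ : A)
          rwa [Subgroup.orderOf_mk] at this
        exact hodd.of_dvd_nat h1
      obtain ⟨m, hm⟩ := ho
      have h3 : a = (a * a) ^ (m + 1) := by
        have h4 : a ^ (2 * m + 1) = 1 := by rw [← hm, pow_orderOf_eq_one]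
        calc a = a ^ (2 * m + 1) * a := by rw [h4, one_mul]
          _ = (a * a) ^ (m + 1) := by rw [← pow_succ, ← pow_two, ← pow_mul]; rfl
      rw [h3]
      exact Subgroup.pow_mem _ h2 _

end Cfsg.Agent.H556.Over
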