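import Cfsg.Agent.H556.OverC

/-!
# S3849, orthogonal groups (helper556), part D: eigenelements for the sign changes are rotations
-/

set_option autoImplicit false
set_option linter.unusedSectionVars false

namespace Cfsg.Agent.H556.Over

open Module Cfsg.Agent.H556.Om Cfsg.Agent.H167.OP Cfsg.Agent.H556.OddCore

variable {F : Type*} [Field F] {V : Type*} [AddCommGroup V] [Module F V] [FiniteDimensional F V]
  {f : V →ₗ[F] V →ₗ[F] F} {G : Type*} [Group G] {ρ : Representation F G V}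
  {J : Type*} [Fintype J] [DecidableEq J] {e : J → V}

/-- the dimension of `[V,a]` for an inverted element `a` -/
theorem dim_inv (h2 : (2 : F) ≠ 0) {a : G} (hc : (orderOf a : F) ≠ 0) (ho : Odd (orderOf a)) {t : G}
    (htt : t * t = 1) (hta : t * a * t⁻¹ = a⁻¹) :
    finrank F (YY ρ a) = 2 * finrank F (YY ρ a ⊓ LinearMap.ker (ρ t + 1) : Submodule F V) := by
  have htY : ∀ v ∈ YY ρ a, ρ t v ∈ YY ρ a := fun v hv => pres_YY (Or.inr hta) hv
  have htt' : ∀ v, ρ t (ρ t v) = v := fun v => by rw [← mul_ap, htt, one_ap]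
  let Up : Submodule F V := YY ρ a ⊓ LinearMap.ker (ρ t - 1)
  let Um : Submodule F V := YY ρ a ⊓ LinearMap.ker (ρ t + 1)
  have hUp : ∀ v, v ∈ Up ↔ v ∈ YY ρ a ∧ ρ t v = v := by
    intro v
    rw [Submodule.mem_inf, LinearMap.mem_ker, LinearMap.sub_apply, sub_eq_zero]; rfl
  have hUm : ∀ v, v ∈ Um ↔ v ∈ YY ρ a ∧ ρ t v = -v := by
    intro v
    rw [Submodule.mem_inf, LinearMap.mem_ker, LinearMap.add_apply, ← eq_neg_iff_add_eq_zero]; rfl
  let B : Module.End F V := ρ a - ρ a⁻¹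
  have hB : ∀ v, B v = ρ a v - ρ a⁻¹ v := fun _ => rfl
  have hBY : ∀ v ∈ YY ρ a, B v ∈ YY ρ a := by
    intro v hv
    rw [hB]
    exact (YY ρ a).sub_mem (pres_YY (Or.inl (by group)) hv) (pres_YY (Or.inl (by group)) hv)
  have h1 : t * a = a⁻¹ * t := by
    calc t * a = (t * a * t⁻¹) * t := by group
      _ = a⁻¹ * t := by rw [hta]
  have h1' : t * a⁻¹ = a * t := by
    calc t * a⁻¹ = (t * a * t⁻¹)⁻¹ * t := by group
      _ = a * t := by rw [hta, inv_inv]
  have hBt : ∀ v, ρ t (B v) = -(B (ρ t v)) := by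
    intro v
    rw [hB, hB, map_sub, ← mul_ap, ← mul_ap, h1, h1', mul_ap, mul_ap]
    abel
  have hBinj : ∀ v ∈ YY ρ a, B v = 0 → v = 0 := by
    intro v hv h
    rw [hB, sub_eq_zero] at h
    have h3 : ρ a (ρ a v) = v := by rw [h, ap_inv]
    exact disj_XY hc (mem_XX.mpr (fix_of_sq ho h3)) hv
  have hpm : finrank F Up ≤ finrank F Um := by
    let φ : Up →ₗ[F] Um := LinearMap.restrict B (p := Up) (q := Um) (by
      intro v hv
      rw [hUp] at hv
      rw [hUm]
      exact ⟨hBY v hv.1, by rw [hBt, hv.2]⟩)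
    refine LinearMap.finrank_le_finrank_of_injective (f := φ) ?_
    rw [← LinearMap.ker_eq_bot, LinearMap.ker_eq_bot']
    intro v hv
    apply Subtype.ext
    exact hBinj v ((hUp v).mp v.2).1 (congrArg Subtype.val hv)
  have hmp : finrank F Um ≤ finrank F Up := by
    let φ : Um →ₗ[F] Up := LinearMap.restrict B (p := Um) (q := Up) (by
      intro v hv
      rw [hUm] at hv
      rw [hUp]
      exact ⟨hBY v hv.1, by rw [hBt, hv.2, map_neg, neg_neg]⟩)
    refine LinearMap.finrank_le_finrank_of_injective (f := φ) ?_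
    rw [← LinearMap.ker_eq_bot, LinearMap.ker_eq_bot']
    intro v hv
    apply Subtype.ext
    exact hBinj v ((hUm v).mp v.2).1 (congrArg Subtype.val hv)
  have hsup : Up ⊔ Um = YY ρ a := by
    apply le_antisymm (sup_le inf_le_left inf_le_left)
    intro v hv
    have h3 : v = (2 : F)⁻¹ • (v + ρ t v) + (2 : F)⁻¹ • (v - ρ t v) := by
      rw [← smul_add]
      have : v + ρ t v + (v - ρ t v) = (2 : F) • v := by module
      rw [this, smul_smul, inv_mul_cancel₀ h2, one_smul]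
    rw [h3]
    refine Submodule.add_mem_sup (Up.smul_mem _ ?_) (Um.smul_mem _ ?_)
    · rw [hUp]
      exact ⟨(YY ρ a).add_mem hv (htY v hv), by rw [map_add, htt']; abel⟩
    · rw [hUm]
      exact ⟨(YY ρ a).sub_mem hv (htY v hv), by rw [map_sub, htt']; abel⟩
  have hinf : Up ⊓ Um = ⊥ := by
    rw [eq_bot_iff]
    intro v hv
    rw [Submodule.mem_inf, hUp, hUm] at hv
    have h3 : v = -v := hv.1.2.symm.trans hv.2.2
    have h4 : (2 : F) • v = 0 := by
      rw [two_smul]
      nth_rewrite 2 [h3]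
      exact add_neg_cancel v
    exact (Submodule.mem_bot F).mpr ((smul_eq_zero.mp h4).resolve_left h2)
  have hdim : finrank F (YY ρ a) = finrank F Up + finrank F Um := by
    have := Submodule.finrank_sup_add_finrank_inf_eq Up Um
    rw [hsup, hinf, finrank_bot, add_zero] at this
    exact this
  have heq : finrank F Up = finrank F Um := le_antisymm hpm hmp
  rw [hdim, heq, two_mul]

/-- data of the sign changes -/
structure Sg (ρ : Representation F G V) (f : V →ₗ[F] V →ₗ[F] F) (e : J → V) (T : Set G) : Prop where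
  ctx : Ctx ρ f
  fr : Frame f e
  W1 : ∀ w w', (∀ j, f (e j) w = 0) → (∀ j, f (e j) w' = 0) → w ≠ 0 → ∃ c : F, w' = c • w
  five : 5 ≤ Fintype.card J
  mem : ∀ t ∈ T, ∃ i j, i ≠ j ∧ ρ t = mono f e (sg F i j) id
  ex : ∀ i j, i ≠ j → ∃ t ∈ T, ρ t = mono f e (sg F i j) id

theorem Sg.sq {T : Set G} (s : Sg ρ f e T) {t : G} (ht : t ∈ T) : t * t = 1 := by
  obtain ⟨k, l, -, ht⟩ := s.mem t ht
  apply s.ctx.inj
  rw [map_mul, map_one, ht, mono_mul s.fr s.ctx.two]
  exact mono_one s.fr s.ctx.two (fun j => sg_sq _ _ _) fun _ => rfl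

theorem Sg.comm {T : Set G} (s : Sg ρ f e T) {t t' : G} (ht : t ∈ T) (ht' : t' ∈ T) : t * t' = t' * t := by
  obtain ⟨i, j, -, ht⟩ := s.mem t ht
  obtain ⟨k, l, -, ht'⟩ := s.mem t' ht'
  apply s.ctx.inj
  rw [map_mul, map_mul, ht, ht', mono_comm s.ctx.two s.fr]

theorem Sg.three {T : Set G} (s : Sg ρ f e T) (j : J) : ∃ i k, i ≠ j ∧ j ≠ k ∧ i ≠ k := by
  have h5 := s.five
  have h1 : 2 ≤ (Finset.univ.erase j).card := by
    rw [Finset.card_erase_of_mem (Finset.mem_univ j), Finset.card_univ]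
    omega
  obtain ⟨i, hi, k, hk, hik⟩ := Finset.one_lt_card.mp h1
  exact ⟨i, k, (Finset.mem_erase.mp hi).1, (Finset.mem_erase.mp hk).1.symm, hik⟩

theorem Sg.coord {T : Set G} (s : Sg ρ f e T) {a : G} (hc : (orderOf a : F) ≠ 0)
    (hTa : ∀ t ∈ T, t * a * t⁻¹ = a ∨ t * a * t⁻¹ = a⁻¹) (j : J) : e j ∈ XX ρ a ∨ e j ∈ YY ρ a := by
  obtain ⟨i, k, hij, hjk, hik⟩ := s.three j
  obtain ⟨t, htT, ht⟩ := s.ex i j hij
  obtain ⟨t', htT', ht'⟩ := s.ex j k hjk
  exact OddCore.coord s.ctx.two s.fr hc hij hik ht ht' (hTa t htT) (hTa t' htT')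

/-- **eigenelements are rotations** -/
theorem Sg.rot [Finite G] {T : Set G} (s : Sg ρ f e T) {a : G} (hc : (orderOf a : F) ≠ 0) (ho : Odd (orderOf a))
    (hTa : ∀ t ∈ T, t * a * t⁻¹ = a ∨ t * a * t⁻¹ = a⁻¹) (ha1 : a ≠ 1) : Rot ρ a := by
  have h := s.ctx
  have hcoord := s.coord hc hTa
  have hY0 : YY ρ a ≠ ⊥ := by
    intro hb
    apply ha1
    apply h.inj
    rw [map_one]
    apply LinearMap.ext
    intro v
    have h1 : ρ a v - v ∈ YY ρ a := ⟨v, rfl⟩
    rw [hb, Submodule.mem_bot, sub_eq_zero] at h1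
    exact h1
  have hinv : ∃ i j : J, i ≠ j ∧ ∃ t ∈ T, ρ t = mono f e (sg F i j) id ∧ t * a * t⁻¹ = a⁻¹ := by
    by_contra hcon
    push Not at hcon
    apply ha1
    refine eq_one_of_comm h.inj h.two h.sym h.nd h.iso s.fr s.W1 hc ho fun j => ?_
    obtain ⟨i, k, hij, hjk, hik⟩ := s.three j
    obtain ⟨t, htT, ht⟩ := s.ex i j hij
    obtain ⟨t', htT', ht'⟩ := s.ex j k hjk
    exact ⟨i, k, hij, hik, t, t', ht, ht', (hTa t htT).resolve_right (hcon i j hij t htT ht),
      (hTa t' htT').resolve_right (hcon j k hjk t' htT' ht')⟩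
  obtain ⟨i₀, j₀, hij₀, t₀, ht₀T, ht₀, hta₀⟩ := hinv
  obtain ⟨-, hY4⟩ := dim_YY h.two s.fr hc ho hij₀ ht₀ (s.sq ht₀T) hta₀
  -- some `e k` in the fixed space
  have hk : ∃ k, e k ∈ XX ρ a := by
    by_contra hcon
    push Not at hcon
    have h1 : Submodule.span F (Set.range e) ≤ YY ρ a := by
      rw [Submodule.span_le]
      rintro _ ⟨j, rfl⟩
      exact (hcoord j).resolve_left (hcon j)
    have h2 := Submodule.finrank_mono h1
    rw [finrank_span_eq_card (s.fr.linearIndependent h.two)] at h2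
    have h5 := s.five
    omega
  obtain ⟨k, hk⟩ := hk
  -- some `e i` in the commutator space
  have hi : ∃ i, e i ∈ YY ρ a := by
    by_contra hcon
    push Not at hcon
    have hX : ∀ j, e j ∈ XX ρ a := fun j => (hcoord j).resolve_right (hcon j)
    apply hY0
    rw [eq_bot_iff]
    intro y hy
    have hW : ∀ y ∈ YY ρ a, ρ t₀ y = y := by
      intro y hy
      rw [ht₀]
      exact mono_orth fun j => orth_XY h.iso (hX j) hy
    have h1 : ρ a (ρ a y) = y := by
      have h2 : t₀ * a * t₀⁻¹ = a⁻¹ := hta₀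
      have h3 : ρ (t₀ * a * t₀⁻¹) y = ρ a y := by
        have h4 : ρ t₀⁻¹ y = y := by
          conv_lhs => rw [← hW y hy]
          exact inv_ap ρ t₀ y
        rw [mul_ap, mul_ap, h4, hW _ (pres_of_comm rfl hy)]
      rw [h2] at h3
      rw [← h3, ap_inv]
    exact (Submodule.mem_bot F).mpr (disj_XY hc (mem_XX.mpr (fix_of_sq ho h1)) hy)
  obtain ⟨i, hi⟩ := hi
  have hik : i ≠ k := by
    rintro rfl
    have h1 := disj_XY hc hk hi
    have h2 := s.fr.self i
    rw [h1, map_zero] at h2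
    exact h.two h2.symm
  obtain ⟨t, htT, ht⟩ := s.ex i k hik
  -- the `-1` eigenspace of `t` in `[V,a]`
  have hline : ∀ v ∈ YY ρ a, ρ t v = -v → (2 : F) • v = f (e i) v • e i := by
    intro v hv hv1
    have h4 := sub_sg (f := f) h.two s.fr hik v
    rw [← ht, hv1, sub_neg_eq_add, ← two_smul F, orth_XY h.iso hk hv, zero_smul, add_zero] at h4
    exact h4
  rcases hTa t htT with hta | hta
  · -- impossible
    exfalso
    have h1 : ρ a (e i) ∈ YY ρ a := pres_of_comm rfl hi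
    have hte : ρ t (e i) = -e i := by
      rw [ht, mono_e s.fr h.two, sg, if_pos (Or.inl rfl)]
      simp
    have h3 : ρ t (ρ a (e i)) = -(ρ a (e i)) := by
      have h4 : t * a = a * t := by
        calc t * a = (t * a * t⁻¹) * t := by group
          _ = a * t := by rw [hta]
      rw [← mul_ap, h4, mul_ap, hte, map_neg]
    have h4 := hline _ h1 h3
    set c := f (e i) (ρ a (e i)) with hc'
    have h5 : ρ a (e i) = ((2 : F)⁻¹ * c) • e i := by
      have h6 : ρ a (e i) = (2 : F)⁻¹ • ((2 : F) • ρ a (e i)) := by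
        rw [smul_smul, inv_mul_cancel₀ h.two, one_smul]
      rw [h6, h4, smul_smul]
    have h6 : ((2 : F)⁻¹ * c) * ((2 : F)⁻¹ * c) = 1 := by
      have h7 := h.iso a (e i) (e i)
      rw [h5, map_smul, map_smul, LinearMap.smul_apply, s.fr.self, smul_eq_mul, smul_eq_mul, ← mul_assoc] at h7
      exact mul_right_cancel₀ h.two (by rw [h7, one_mul])
    have h7 : ρ a (ρ a (e i)) = e i := by rw [h5, map_smul, h5, smul_smul, h6, one_smul]
    have h8 := disj_XY hc (mem_XX.mpr (fix_of_sq ho h7)) hi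
    have h9 := s.fr.self i
    rw [h8, map_zero] at h9
    exact h.two h9.symm
  · refine ⟨hc, ho, ?_⟩
    have h1 := dim_inv (ρ := ρ) h.two hc ho (s.sq htT) hta
    have h3 : finrank F (YY ρ a ⊓ LinearMap.ker (ρ t + 1) : Submodule F V) ≤ 1 := by
      have h4 : YY ρ a ⊓ LinearMap.ker (ρ t + 1) ≤ Submodule.span F {e i} := by
        intro v hv
        rw [Submodule.mem_inf, LinearMap.mem_ker, LinearMap.add_apply, ← eq_neg_iff_add_eq_zero] at hv
        have h5 := hline v hv.1 hv.2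
        have h6 : (2 : F) • v ∈ Submodule.span F {e i} := by
          rw [h5]
          exact Submodule.smul_mem _ _ (Submodule.mem_span_singleton_self _)
        exact (Submodule.smul_mem_iff _ h.two).mp h6
      refine (Submodule.finrank_mono h4).trans ?_
      have h5 := finrank_span_finset_le_card (R := F) ({e i} : Finset V)
      rw [Finset.coe_singleton, Finset.card_singleton] at h5
      exact h5
    have h4 : finrank F (YY ρ a) ≠ 0 := by
      rw [Ne, Submodule.finrank_eq_zero]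
      exact hY0
    omega

/-- the plane of a rotation which is an eigenelement -/
theorem Sg.cases {T : Set G} (s : Sg ρ f e T) {a : G} (ha : Rot ρ a)
    (hTa : ∀ t ∈ T, t * a * t⁻¹ = a ∨ t * a * t⁻¹ = a⁻¹) :
    (∃ i j, i ≠ j ∧ e i ∈ YY ρ a ∧ e j ∈ YY ρ a) ∨
      ((∃ w, w ≠ 0 ∧ ∀ j, f (e j) w = 0) ∧ ∀ w, (∀ j, f (e j) w = 0) → w ∈ YY ρ a) := by
  classical
  have h := s.ctx
  have hcoord := s.coord ha.hc hTa
  have hdisj : ∀ v ∈ XX ρ a, v ∈ YY ρ a → v = 0 := fun v => disj_XY ha.hc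
  have horth : ∀ x ∈ XX ρ a, ∀ y ∈ YY ρ a, f x y = 0 := fun x hx y hy => orth_XY h.iso hx hy
  have hfirst : (∀ w, (∀ j, f (e j) w = 0) → w ∈ XX ρ a) → ∃ i j, i ≠ j ∧ e i ∈ YY ρ a ∧ e j ∈ YY ρ a := by
    intro hW
    obtain ⟨hI1, -, -⟩ := split h.two s.fr h.sym horth hdisj hcoord hW
      (Finset.univ.filter fun j => e j ∈ YY ρ a) (by simp)
    rw [ha.two] at hI1
    obtain ⟨i, hi, j, hj, hij⟩ := Finset.one_lt_card.mp (by rw [hI1]; omega : 1 < _)
    simp only [Finset.mem_filter, Finset.mem_univ, true_and] at hi hj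
    exact ⟨i, j, hij, hi, hj⟩
  by_cases hw : ∃ w, w ≠ 0 ∧ ∀ j, f (e j) w = 0
  · rcases leftover h.sym horth hdisj (exists_XY ha.hc) s.W1 hcoord with hW | hW
    · exact Or.inl (hfirst hW)
    · exact Or.inr ⟨hw, hW⟩
  · left
    apply hfirst
    intro w hw'
    have h0 : w = 0 := by
      by_contra h0
      exact hw ⟨w, h0, hw'⟩
    rw [h0]
    exact (XX ρ a).zero_mem

end Cfsg.Agent.H556.Over
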