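import Cfsg.Agent.H556.OverD
import Cfsg.Agent.H571.RM.Fd

/-!
# S3849, orthogonal groups (helper556), part E: the abstract alternative
-/

set_option autoImplicit false
set_option linter.unusedSectionVars false

namespace Cfsg.Agent.H556.Over

open Module Cfsg.Agent.H556.Om Cfsg.Agent.H167.OP Cfsg.Agent.H556.OddCore

variable {F : Type*} [Field F] {V : Type*} [AddCommGroup V] [Module F V] [FiniteDimensional F V]
  {f : V →ₗ[F] V →ₗ[F] F} {G : Type*} [Group G] {ρ : Representation F G V}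
  {J : Type*} [Fintype J] [DecidableEq J] {e : J → V}

/-- the data of `A ≤ H` -/
structure AH (ρ : Representation F G V) (f : V →ₗ[F] V →ₗ[F] F) (A H : Subgroup G) : Prop where
  ctx : Ctx ρ f
  ab : ∀ a ∈ A, ∀ b ∈ A, a * b = b * a
  odd : Odd (Nat.card A)
  char : (Nat.card A : F) ≠ 0
  ale : A ≤ H
  nor : ∀ h ∈ H, ∀ a ∈ A, h * a * h⁻¹ ∈ A
  mem : ∀ y ∈ H, Odd (orderOf y) → y ∈ A
  idx2 : ¬ 2 ∣ H.index
  idxt : ∀ t : ℕ, t.Prime → t ∣ Nat.card A → ¬ t ∣ H.index

theorem AH.oa {A H : Subgroup G} (d : AH ρ f A H) {a : G} (ha : a ∈ A) : Odd (orderOf a) ∧ (orderOf a : F) ≠ 0 := by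
  have h1 : orderOf a ∣ Nat.card A := by
    have := orderOf_dvd_natCard (⟨a, ha⟩ : A)
    rwa [Subgroup.orderOf_mk] at this
  refine ⟨d.odd.of_dvd_nat h1, fun h0 => d.char ?_⟩
  obtain ⟨m, hm⟩ := h1
  rw [hm, Nat.cast_mul, h0, zero_mul]

/-- the eigenelements -/
def EE (T : Set G) (A : Subgroup G) : Set G := {a | a ∈ A ∧ ∀ t ∈ T, t * a * t⁻¹ = a ∨ t * a * t⁻¹ = a⁻¹}

variable [Finite G]

theorem le_EE {A H : Subgroup G} (d : AH ρ f A H) {T : Set G} (s : Sg ρ f e T) (hTH : T ⊆ H) :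
    A ≤ Subgroup.closure (EE T A) :=
  gen_eigen (fun _ hs _ ht => s.comm hs ht) (fun _ ht => s.sq ht) _ A rfl d.ab d.odd fun t ht a ha =>
    d.nor t (hTH ht) a ha

theorem rot_EE {A H : Subgroup G} (d : AH ρ f A H) {T : Set G} (s : Sg ρ f e T) {a : G} (ha : a ∈ EE T A)
    (ha1 : a ≠ 1) : Rot ρ a :=
  s.rot (d.oa ha.1).2 (d.oa ha.1).1 ha.2 ha1

theorem rgen {A H : Subgroup G} (d : AH ρ f A H) {T : Set G} (s : Sg ρ f e T) (hTH : T ⊆ H) : RGen ρ A := by
  intro a ha
  have h1 := le_EE d s hTH ha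
  refine (Subgroup.closure_le _ |>.mpr ?_) h1
  intro b hb
  by_cases hb1 : b = 1
  · rw [hb1]; exact Subgroup.one_mem _
  · exact Subgroup.subset_closure ⟨hb.1, rot_EE d s hb hb1⟩

/-- **case II** : one plane only -/
theorem case_two {A H : Subgroup G} (d : AH ρ f A H) {T : Set G} (s : Sg ρ f e T) (hTH : T ⊆ H)
    (hno : ∀ a ∈ EE T A, a ≠ 1 → ¬ ∃ i j, i ≠ j ∧ e i ∈ YY ρ a ∧ e j ∈ YY ρ a) :
    ∀ x ∈ A, x ≠ 1 → ∀ y : G, y * x = x * y → ∀ a ∈ A, y * a = a * y := by
  have h := d.ctx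
  intro x hx hx1 y hy
  have hW : ∀ a ∈ EE T A, a ≠ 1 → (∃ w, w ≠ 0 ∧ ∀ j, f (e j) w = 0) ∧
      ∀ w, (∀ j, f (e j) w = 0) → w ∈ YY ρ a := fun a ha ha1 =>
    (s.cases (rot_EE d s ha ha1) ha.2).resolve_left (hno a ha ha1)
  -- some eigenelement
  have hex : ∃ a₀ ∈ EE T A, a₀ ≠ 1 := by
    by_contra hcon
    push Not at hcon
    apply hx1
    have h1 := le_EE d s hTH hx
    have h2 : Subgroup.closure (EE T A) ≤ ⊥ := by
      rw [Subgroup.closure_le]
      intro a ha
      exact Subgroup.mem_bot.mpr (hcon a ha)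
    exact Subgroup.mem_bot.mp (h2 h1)
  obtain ⟨a₀, ha₀, ha₀1⟩ := hex
  have hr₀ := rot_EE d s ha₀ ha₀1
  have hsame : ∀ a ∈ EE T A, a ≠ 1 → YY ρ a₀ = YY ρ a := by
    intro a ha ha1
    have hr := rot_EE d s ha ha1
    rcases hr₀.pair h hr (d.ab _ ha₀.1 _ ha.1) with h1 | h1
    · exfalso
      obtain ⟨⟨w, hw0, hw⟩, hW₀⟩ := hW a₀ ha₀ ha₀1
      exact hw0 (disj_XY hr.hc (h1 (hW₀ w hw)) ((hW a ha ha1).2 w hw))
    · exact h1
  -- `A` acts trivially on the orthogonal space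
  have htriv : ∀ a ∈ A, ∀ v ∈ XX ρ a₀, ρ a v = v := by
    let N : Subgroup G :=
      { carrier := {g | ∀ v ∈ XX ρ a₀, ρ g v = v}
        one_mem' := fun v _ => one_ap ρ v
        mul_mem' := by
          intro g g' hg hg' v hv
          rw [mul_ap, hg' v hv, hg v hv]
        inv_mem' := by
          intro g hg v hv
          conv_lhs => rw [← hg v hv]
          exact inv_ap ρ g v }
    have h1 : Subgroup.closure (EE T A) ≤ N := by
      rw [Subgroup.closure_le]
      intro a ha v hv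
      by_cases ha1 : a = 1
      · rw [ha1, one_ap]
      · rw [← mem_XX, mem_XX_iff h (d.oa ha.1).2, ← hsame a ha ha1]
        exact (mem_XX_iff h hr₀.hc).mp hv
    exact fun a ha => h1 (le_EE d s hTH ha)
  -- the plane of `x`
  have hYx : YY ρ x ≤ YY ρ a₀ := by
    intro v hv
    rw [mem_YY_iff' h hr₀.hc]
    intro u hu
    exact orth_XY h.iso (mem_XX.mpr (htriv x hx u hu)) hv
  have hYx' : YY ρ a₀ ≤ YY ρ x := by
    rcases plane_split_odd h (d.oa hx).2 (d.oa hx).1 hr₀.two (hr₀.nd h)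
      (fun u hu => pres_of_comm (d.ab _ ha₀.1 _ hx) hu) with h1 | h1
    · exfalso
      apply hx1
      apply h.inj
      rw [map_one]
      apply LinearMap.ext
      intro v
      obtain ⟨u, hu, w, hw, rfl⟩ := exists_XY (ρ := ρ) hr₀.hc v
      rw [map_add, htriv x hx u hu, mem_XX.mp (h1 hw)]
      rfl
    · exact h1
  have hxe : YY ρ x = YY ρ a₀ := le_antisymm hYx hYx'
  have hrx : Rot ρ x := ⟨(d.oa hx).2, (d.oa hx).1, by rw [hxe]; exact hr₀.two⟩
  -- `y` commutes with the generators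
  have h1 : Subgroup.closure (EE T A) ≤ Subgroup.centralizer {y} := by
    rw [Subgroup.closure_le]
    intro a ha
    rw [SetLike.mem_coe, Subgroup.mem_centralizer_singleton_iff]
    by_cases ha1 : a = 1
    · rw [ha1]; simp
    · have h2 := hrx.transfer h (rot_EE d s ha ha1) (by rw [hxe, hsame a ha ha1]) hy
      exact h2.symm
  intro a ha
  have h2 := h1 (le_EE d s hTH ha)
  rw [Subgroup.mem_centralizer_singleton_iff] at h2
  exact h2.symm

/-- elements which rotate a pair of frame vectors -/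
theorem four_comm (h : Ctx ρ f) (hF : Frame f e) {z x : G} (hx : Rot ρ x) {a c : J} (hac : a ≠ c)
    (ha : e a ∈ YY ρ x) (hc : e c ∈ YY ρ x) (hza : ρ z (e a) = e c) (hzc : ρ z (e c) = -e a) : z * x = x * z := by
  have h2 := h.two
  let K : Module.End F V := (f (e a)).smulRight ((2 : F)⁻¹ • e c) - (f (e c)).smulRight ((2 : F)⁻¹ • e a)
  have hK : ∀ v, K v = f (e a) v • ((2 : F)⁻¹ • e c) - f (e c) v • ((2 : F)⁻¹ • e a) := fun _ => rfl
  have hsk : Sk f (YY ρ x) K := by
    refine ⟨fun u v => ?_, fun v => ?_⟩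
    · rw [hK, hK]
      simp only [map_sub, map_smul, LinearMap.sub_apply, LinearMap.smul_apply, smul_eq_mul]
      rw [h.sym u (e c), h.sym u (e a)]
      ring
    · rw [hK]
      exact (YY ρ x).sub_mem ((YY ρ x).smul_mem _ ((YY ρ x).smul_mem _ hc))
        ((YY ρ x).smul_mem _ ((YY ρ x).smul_mem _ ha))
  have hzinv : ∀ v, f (e a) (ρ z v) = -(f (e c) v) ∧ f (e c) (ρ z v) = f (e a) v := by
    intro v
    constructor
    · have h1 : e a = -(ρ z (e c)) := by rw [hzc, neg_neg]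
      rw [h1, map_neg, LinearMap.neg_apply, h.iso]
    · have h1 : e c = ρ z (e a) := hza.symm
      conv_lhs => rw [h1]
      rw [h.iso]
  have hzK : ∀ v, ρ z (K v) = K (ρ z v) := by
    intro v
    rw [hK, hK, (hzinv v).1, (hzinv v).2, map_sub, map_smul, map_smul, map_smul, map_smul, hza, hzc]
    module
  obtain ⟨s, hs⟩ := hx.sk_eq h hsk
  have hs0 : s ≠ 0 := by
    rintro rfl
    have h1 := hK (e a)
    rw [hs, zero_smul, LinearMap.zero_apply, hF.self, hF.orth c a hac.symm, zero_smul, sub_zero, smul_smul,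
      mul_inv_cancel₀ h2, one_smul] at h1
    have h3 := hF.self c
    rw [← h1, map_zero] at h3
    exact h2 h3.symm
  apply hx.comm_of_sa h
  intro v
  have h1 := hzK v
  rw [hs, LinearMap.smul_apply, LinearMap.smul_apply, map_smul] at h1
  have h3 := congrArg (fun u => s⁻¹ • u) h1
  simp only [smul_smul, inv_mul_cancel₀ hs0, one_smul] at h3
  exact h3

/-! ### The two-group -/

variable {K : Type*} [Fintype K] [DecidableEq K]

/-- flips -/
def fl (a : K → Bool) (j : K × Bool) : K × Bool := (j.1, xor (a j.1) j.2)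

/-- monomial elements preserving the blocks -/
def BB (h2 : (2 : F) ≠ 0) {E : K × Bool → V} (hF : Frame f E) (hinj : Function.Injective ρ) : Subgroup G where
  carrier := {x | ∃ (s : K × Bool → F) (a : K → Bool), (∀ j, s j * s j = 1) ∧ ρ x = mono f E s (fl a)}
  one_mem' := ⟨fun _ => 1, fun _ => false, fun _ => one_mul 1, by
    rw [map_one]
    exact (mono_one hF h2 (fun _ => rfl) fun j => by simp [fl]).symm⟩
  mul_mem' := by
    rintro x y ⟨s, a, hs, hx⟩ ⟨t, b, ht, hy⟩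
    refine ⟨fun j => t j * s (fl b j), fun k => xor (a k) (b k), fun j => ?_, ?_⟩
    · have h3 := hs (fl b j)
      have h4 := ht j
      calc t j * s (fl b j) * (t j * s (fl b j)) = (t j * t j) * (s (fl b j) * s (fl b j)) := by ring
        _ = 1 := by rw [h3, h4, one_mul]
    · rw [map_mul, hx, hy, mono_mul hF h2]
      congr 1
      funext j
      simp [fl]
  inv_mem' := by
    rintro x ⟨s, a, hs, hx⟩
    refine ⟨s ∘ fl a, a, fun j => hs _, ?_⟩
    have hff : ∀ j, fl a (fl a j) = j := fun j => by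
      ext <;> simp [fl]
    have h3 : mono f E (s ∘ fl a) (fl a) * ρ x = 1 := by
      rw [hx, mono_mul hF h2]
      refine mono_one hF h2 (fun j => ?_) fun j => ?_
      · show s j * s (fl a (fl a j)) = 1
        rw [hff, hs]
      · exact hff j
    have h4 : ρ x * ρ x⁻¹ = 1 := by rw [← map_mul, mul_inv_cancel, map_one]
    calc ρ x⁻¹ = (mono f E (s ∘ fl a) (fl a) * ρ x) * ρ x⁻¹ := by rw [h3, one_mul]
      _ = _ := by rw [mul_assoc, h4, mul_one]

theorem BB_isPGroup (h2 : (2 : F) ≠ 0) {E : K × Bool → V} (hF : Frame f E) (hinj : Function.Injective ρ) :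
    IsPGroup 2 (BB h2 hF hinj) := by
  rintro ⟨x, s, a, hs, hx⟩
  refine ⟨2, Subtype.ext ?_⟩
  show x ^ 2 ^ 2 = 1
  apply hinj
  have h3 : ρ (x * x) = mono f E (fun j => s j * s (fl a j)) id := by
    rw [map_mul, hx, mono_mul hF h2]
    congr 1
    funext j
    ext <;> simp [fl]
  have h4 : x ^ 2 ^ 2 = (x * x) * (x * x) := by
    rw [pow_succ, pow_one, pow_mul, pow_two, pow_two]
  rw [h4, map_mul, h3, mono_mul hF h2, map_one]
  refine mono_one hF h2 (fun j => ?_) fun j => rfl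
  show s j * s (fl a j) * (s j * s (fl a j)) = 1
  calc s j * s (fl a j) * (s j * s (fl a j)) = (s j * s j) * (s (fl a j) * s (fl a j)) := by ring
    _ = 1 := by rw [hs, hs, one_mul]

end Cfsg.Agent.H556.Over
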