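import Cfsg.Agent.H556.OverE

/-!
# S3849, orthogonal groups (helper556), part F: case I of the abstract alternative
-/

set_option autoImplicit false
set_option linter.unusedSectionVars false

namespace Cfsg.Agent.H556.Over

open Module Cfsg.Agent.H556.Om Cfsg.Agent.H167.OP Cfsg.Agent.H556.OddCore

variable {F : Type*} [Field F] {V : Type*} [AddCommGroup V] [Module F V] [FiniteDimensional F V]
  {f : V →ₗ[F] V →ₗ[F] F} {G : Type*} [Group G] {ρ : Representation F G V}
  {J : Type*} [Fintype J] [DecidableEq J] {e : J → V}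
  {K : Type*} [Fintype K] [DecidableEq K]

/-- the blocks of `z i j` -/
def zb (i j k : K) : Bool := decide (k = i ∨ k = j)

/-- the signs of `z i j` -/
def zs (F : Type*) [Field F] (i j : K) (l : K × Bool) : F := if (l.1 = i ∨ l.1 = j) ∧ l.2 = true then -1 else 1

/-- `z` is the element rotating the blocks `i`, `j` -/
def IsZ (ρ : Representation F G V) (f : V →ₗ[F] V →ₗ[F] F) (E : K × Bool → V) (i j : K) (z : G) : Prop :=
  ρ z = mono f E (zs F i j) (fl (zb i j))

section Z

variable {E : K × Bool → V} {i j : K} {z : G}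

theorem IsZ.mem (hz : IsZ ρ f E i j z) (h : Ctx ρ f) (hF : Frame f E) :
    z ∈ BB h.two hF h.inj := by
  refine ⟨_, _, fun l => ?_, hz⟩
  unfold zs
  split_ifs <;> ring

theorem IsZ.rot (hz : IsZ ρ f E i j z) (h : Ctx ρ f) (hF : Frame f E) {k : K} (hk : k = i ∨ k = j) :
    ρ z (E (k, false)) = E (k, true) ∧ ρ z (E (k, true)) = -E (k, false) := by
  constructor
  · rw [hz, mono_e hF h.two]
    have h1 : fl (zb i j) (k, false) = (k, true) := by
      simp [fl, zb, hk]
    rw [h1, zs, if_neg (by simp), one_smul]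
  · rw [hz, mono_e hF h.two]
    have h1 : fl (zb i j) (k, true) = (k, false) := by
      simp [fl, zb, hk]
    rw [h1, zs, if_pos ⟨hk, rfl⟩]
    module

theorem IsZ.fix (hz : IsZ ρ f E i j z) (h : Ctx ρ f) (hF : Frame f E) {k : K} (hk : ¬ (k = i ∨ k = j)) (b : Bool) :
    ρ z (E (k, b)) = E (k, b) := by
  rw [hz, mono_e hF h.two]
  have h1 : fl (zb i j) (k, b) = (k, b) := by
    simp [fl, zb, hk]
  rw [h1, zs, if_neg (fun h' => hk h'.1), one_smul]

theorem IsZ.orth (hz : IsZ ρ f E i j z) {w : V} (hw : ∀ l, f (E l) w = 0) : ρ z w = w := by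
  rw [hz, mono_orth hw]

variable {x : K → G}

/-- the planes -/
structure PlanesOf (ρ : Representation F G V) (E : K × Bool → V) (x : K → G) : Prop where
  rot : ∀ k, Rot ρ (x k)
  mem : ∀ k b, E (k, b) ∈ YY ρ (x k)

theorem PlanesOf.span (hx : PlanesOf ρ E x) (h : Ctx ρ f) (hF : Frame f E) (k : K) {v : V}
    (hv : v ∈ YY ρ (x k)) : ∃ α β : F, v = α • E (k, false) + β • E (k, true) := by
  refine plane_span (hx.rot k).two (hx.mem k false) (hx.mem k true) (indep_orth (f := f) ?_ ?_ ?_) hv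
  · rw [hF.self]; exact h.two
  · intro h0
    have h1 := hF.self (k, true)
    rw [h0, map_zero] at h1
    exact h.two h1.symm
  · exact hF.orth _ _ (by simp)

theorem PlanesOf.orth (hx : PlanesOf ρ E x) (h : Ctx ρ f) (hF : Frame f E) {k l : K} (hkl : k ≠ l) :
    YY ρ (x k) ≤ XX ρ (x l) := by
  intro v hv
  rw [mem_XX_iff h (hx.rot l).hc]
  intro w hw
  obtain ⟨α, β, rfl⟩ := hx.span h hF k hv
  obtain ⟨γ, δ, rfl⟩ := hx.span h hF l hw
  have h1 : ∀ b b', f (E (l, b)) (E (k, b')) = 0 := fun b b' => hF.orth _ _ fun h' => hkl (congrArg Prod.fst h').symm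
  simp only [map_add, map_smul, LinearMap.add_apply, LinearMap.smul_apply, h1, smul_zero, add_zero]

theorem IsZ.neg (hz : IsZ ρ f E i j z) (h : Ctx ρ f) (hF : Frame f E) (hx : PlanesOf ρ E x) {k : K}
    (hk : k = i ∨ k = j) {v : V} (hv : v ∈ YY ρ (x k)) : ρ z (ρ z v) = -v := by
  obtain ⟨α, β, rfl⟩ := hx.span h hF k hv
  obtain ⟨h1, h2⟩ := hz.rot h hF hk
  rw [map_add, map_smul, map_smul, h1, h2, map_add, map_smul, map_smul, map_neg, h1, h2]
  module

theorem IsZ.YY (hz : IsZ ρ f E i j z) (h : Ctx ρ f) (hF : Frame f E) (hx : PlanesOf ρ E x) :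
    OddCore.YY ρ z = OddCore.YY ρ (x i) ⊔ OddCore.YY ρ (x j) := by
  have hle : ∀ k, (k = i ∨ k = j) → OddCore.YY ρ (x k) ≤ OddCore.YY ρ (x i) ⊔ OddCore.YY ρ (x j) := by
    rintro k (rfl | rfl)
    · exact le_sup_left
    · exact le_sup_right
  apply le_antisymm
  · intro v hv
    obtain ⟨u, rfl⟩ := mem_YY.mp hv
    obtain ⟨c, w, hw, rfl⟩ := exists_decomp hF h.two u
    have h1 : ρ z (∑ l, c l • E l + w) - (∑ l, c l • E l + w) = ∑ l, c l • (ρ z (E l) - E l) := by
      rw [map_add, map_sum, hz.orth hw]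
      simp only [map_smul, smul_sub, Finset.sum_sub_distrib]
      abel
    rw [h1]
    refine Submodule.sum_mem _ fun l _ => Submodule.smul_mem _ _ ?_
    obtain ⟨k, b⟩ := l
    by_cases hk : k = i ∨ k = j
    · obtain ⟨h2, h3⟩ := hz.rot h hF hk
      refine hle k hk ?_
      cases b
      · rw [h2]
        exact (OddCore.YY ρ (x k)).sub_mem (hx.mem k true) (hx.mem k false)
      · rw [h3]
        exact (OddCore.YY ρ (x k)).sub_mem ((OddCore.YY ρ (x k)).neg_mem (hx.mem k false)) (hx.mem k true)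
    · rw [hz.fix h hF hk, sub_self]
      exact Submodule.zero_mem _
  · have hk : ∀ k, (k = i ∨ k = j) → OddCore.YY ρ (x k) ≤ OddCore.YY ρ z := by
      intro k hk v hv
      have h1 := hz.neg h hF hx hk hv
      have h2 : (2 : F) • v ∈ OddCore.YY ρ z := by
        refine ⟨-(ρ z v + v), ?_⟩
        show ρ z (-(ρ z v + v)) - -(ρ z v + v) = _
        rw [map_neg, map_add, h1]
        module
      exact (Submodule.smul_mem_iff _ h.two).mp h2
    exact sup_le (hk i (Or.inl rfl)) (hk j (Or.inr rfl))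

theorem IsZ.four [Finite G] (hz : IsZ ρ f E i j z) (h : Ctx ρ f) (hF : Frame f E) (hx : PlanesOf ρ E x) :
    Four ρ z := by
  refine ⟨?_, ?_⟩
  · obtain ⟨n, hn⟩ := BB_isPGroup h.two hF h.inj ⟨z, hz.mem h hF⟩
    have h1 : orderOf z ∣ 2 ^ n := orderOf_dvd_of_pow_eq_one (congrArg Subtype.val hn)
    intro h0
    obtain ⟨m, hm⟩ := h1
    have h2 : ((2 ^ n : ℕ) : F) = 0 := by rw [hm, Nat.cast_mul, h0, zero_mul]
    rw [Nat.cast_pow] at h2
    exact h.two (by exact_mod_cast eq_zero_of_pow_eq_zero h2)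
  · intro v hv
    rw [hz.YY h hF hx] at hv
    obtain ⟨p, hp, q, hq, rfl⟩ := Submodule.mem_sup.mp hv
    rw [map_add, map_add, hz.neg h hF hx (Or.inl rfl) hp, hz.neg h hF hx (Or.inr rfl) hq]
    abel

/-- `z i j` commutes with the rotations `x k` -/
theorem IsZ.comm_x [Finite G] (hz : IsZ ρ f E i j z) (h : Ctx ρ f) (hF : Frame f E) (hx : PlanesOf ρ E x) (k : K) :
    z * x k = x k * z := by
  by_cases hk : k = i ∨ k = j
  · obtain ⟨h1, h2⟩ := hz.rot h hF hk
    exact four_comm h hF (hx.rot k) (a := (k, false)) (c := (k, true)) (by simp) (hx.mem k false) (hx.mem k true) h1 h2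
  · push Not at hk
    refine comm_of_orth h (hz.four h hF hx).hc ?_
    rw [hz.YY h hF hx]
    exact sup_le (hx.orth h hF hk.1.symm) (hx.orth h hF hk.2.symm)

end Z

end Cfsg.Agent.H556.Over
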