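import Cfsg.Agent.H556.OverF

/-!
# S3849, orthogonal groups (helper556), part G: case I
-/

set_option autoImplicit false
set_option linter.unusedSectionVars false

namespace Cfsg.Agent.H556.Over

open Module Cfsg.Agent.H556.Om Cfsg.Agent.H167.OP Cfsg.Agent.H556.OddCore
open scoped Pointwise

universe u

variable {F : Type*} [Field F] {V : Type*} [AddCommGroup V] [Module F V] [FiniteDimensional F V]
  {f : V →ₗ[F] V →ₗ[F] F} {G : Type u} [Group G] {ρ : Representation F G V}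
  {J : Type*} [Fintype J] [DecidableEq J] {e : J → V}

theorem isPGroup_closure' {t m : ℕ} {S : Set G} (hS : ∀ x ∈ S, ∀ y ∈ S, x * y = y * x)
    (h2 : ∀ x ∈ S, x ^ t ^ m = 1) : IsPGroup t (Subgroup.closure S) := by
  have hcomm := comm_closure hS
  have h3 : ∀ x ∈ Subgroup.closure S, x ^ t ^ m = 1 := by
    intro x hx
    induction hx using Subgroup.closure_induction with
    | mem x hx => exact h2 x hx
    | one => exact one_pow _
    | mul x y hx hy hx1 hy1 =>
      have h5 : Commute x y := hcomm x hx y hy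
      rw [h5.mul_pow, hx1, hy1, one_mul]
    | inv x hx hx1 => rw [inv_pow, hx1, inv_one]
  rintro ⟨x, hx⟩
  exact ⟨m, Subtype.ext (h3 x hx)⟩

/-- the dimension of the space orthogonal to a frame -/
theorem frame_orth_dim (h2 : (2 : F) ≠ 0) {L : Type*} [Fintype L] [DecidableEq L] {E : L → V} (hF : Frame f E)
    (W : Submodule F V) (hW : ∀ w, w ∈ W ↔ ∀ j, f (E j) w = 0) : finrank F W + Fintype.card L = finrank F V := by
  let Φ : V →ₗ[F] (L → F) := LinearMap.pi fun j => f (E j)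
  have h1 : W = LinearMap.ker Φ := by
    ext w
    rw [hW, LinearMap.mem_ker]
    constructor
    · intro h
      funext j
      exact h j
    · intro h j
      exact congrFun h j
  have h3 : LinearMap.range Φ = ⊤ := by
    rw [eq_top_iff]
    intro d _
    refine ⟨∑ j, ((2 : F)⁻¹ * d j) • E j, ?_⟩
    funext i
    show f (E i) (∑ j, ((2 : F)⁻¹ * d j) • E j) = d i
    rw [map_sum, Finset.sum_eq_single i]
    · rw [map_smul, hF.self, smul_eq_mul]
      field_simp
    · intro j _ hj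
      rw [map_smul, hF.orth i j hj.symm, smul_zero]
    · intro h
      exact absurd (Finset.mem_univ i) h
  have h4 := LinearMap.finrank_range_add_finrank_ker Φ
  rw [h3, finrank_top, Module.finrank_pi] at h4
  rw [h1]
  omega

variable [Finite G]

/-- **case I** -/
theorem case_one {A H : Subgroup G} (d : AH ρ f A H) {T : Set G} (s : Sg ρ f e T) (hTH : T ⊆ H)
    (hJ6 : 6 ≤ Fintype.card J) (hN : finrank F V ≤ 2 * (Fintype.card J / 2) + 2)
    (hx : ∀ a : G, Rot ρ a → ∀ i j, i ≠ j → e i ∈ YY ρ a → e j ∈ YY ρ a → ∀ p q, p ≠ q →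
      ∃ x : G, orderOf x = orderOf a ∧ Rot ρ x ∧ e p ∈ YY ρ x ∧ e q ∈ YY ρ x)
    (hz : ∀ (n : ℕ) (κ : Fin n × Bool → J), Function.Injective κ → ∀ i j, i ≠ j → ∃ z : G, IsZ ρ f (e ∘ κ) i j z)
    (hI : ∃ a ∈ EE T A, a ≠ 1 ∧ ∃ i j, i ≠ j ∧ e i ∈ YY ρ a ∧ e j ∈ YY ρ a) :
    ∃ Z : Set G, (∀ z ∈ Z, z ∈ H ∧ ∀ a ∈ A, z * a = a * z) ∧ IsPGroup 2 (Subgroup.closure Z) ∧
      ∀ g : G, (∀ z ∈ Z, ∀ a ∈ A, ∃ b ∈ A, z * (g * a * g⁻¹) * z⁻¹ = g * b * g⁻¹) →
        ∀ a ∈ A, ∀ b ∈ A, a * (g * b * g⁻¹) = g * b * g⁻¹ * a := by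
  classical
  have h := d.ctx
  obtain ⟨a, haE, ha1, i, j, hij, hi, hj⟩ := hI
  have hra := rot_EE d s haE ha1
  -- a power of prime order
  obtain ⟨t, ht, htd⟩ := Nat.exists_prime_and_dvd (n := orderOf a) (fun h1 => ha1 (orderOf_eq_one_iff.mp h1))
  have htodd : Odd t := hra.odd.of_dvd_nat htd
  set b := a ^ (orderOf a / t) with hb
  have hob : orderOf b = t := orderOf_pow_orderOf_div (orderOf_pos a).ne' htd
  have hbE : b ∈ EE T A := by
    refine ⟨A.pow_mem haE.1 _, fun t' ht' => ?_⟩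
    rw [hb, ← conj_pow]
    rcases haE.2 t' ht' with h1 | h1
    · left; rw [h1]
    · right; rw [h1, inv_pow]
  have hb1 : b ≠ 1 := by
    intro h1
    rw [h1, orderOf_one] at hob
    exact ht.one_lt.ne hob
  have hrb := rot_EE d s hbE hb1
  have hYab : YY ρ a = YY ρ b := by
    rcases hra.pair h hrb (d.ab _ haE.1 _ hbE.1) with h1 | h1
    · exfalso
      have h2 : YY ρ b = ⊥ := by
        rw [eq_bot_iff]
        intro v hv
        have h3 := mem_XX.mp (orth_symm h hra.hc h1 hv)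
        have h4 : ρ b v = v := pow_fix h3 _
        exact (Submodule.mem_bot F).mpr (disj_XY hrb.hc (mem_XX.mpr h4) hv)
      have h3 := hrb.two
      rw [h2, finrank_bot] at h3
      omega
    · exact h1
  rw [hYab] at hi hj
  -- the planes
  set n := Fintype.card J / 2 with hn
  obtain ⟨κ⟩ : Nonempty (Fin n × Bool ↪ J) := by
    apply Function.Embedding.nonempty_of_card_le
    rw [Fintype.card_prod, Fintype.card_fin, Fintype.card_bool]
    omega
  have hκ : ∀ k : Fin n, κ (k, false) ≠ κ (k, true) := fun k h1 => by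
    have := κ.injective h1
    simp at this
  choose x₀ hox₀ hrx₀ hm₀ hm₁ using fun k : Fin n => hx b hrb i j hij hi hj (κ (k, false)) (κ (k, true)) (hκ k)
  set E : Fin n × Bool → V := e ∘ κ with hE
  have hFE : Frame f E := s.fr.comp κ.injective
  have hP₀ : PlanesOf ρ E x₀ := by
    refine ⟨hrx₀, fun k b => ?_⟩
    cases b
    · exact hm₀ k
    · exact hm₁ k
  have hxx₀ : ∀ k l, x₀ k * x₀ l = x₀ l * x₀ k := by
    intro k l
    by_cases hkl : k = l
    · rw [hkl]
    · exact comm_of_orth h (hrx₀ k).hc (hP₀.orth h hFE hkl)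
  have hX₀ : IsPGroup t (Subgroup.closure (Set.range x₀)) := by
    refine isPGroup_closure' (m := 1) ?_ ?_
    · rintro _ ⟨k, rfl⟩ _ ⟨l, rfl⟩
      exact hxx₀ k l
    · rintro _ ⟨k, rfl⟩
      rw [pow_one, ← hob, ← hox₀ k, pow_orderOf_eq_one]
  have htA : t ∣ Nat.card A := by
    have h1 : orderOf b ∣ Nat.card A := by
      have := orderOf_dvd_natCard (⟨b, hbE.1⟩ : A)
      rwa [Subgroup.orderOf_mk] at this
    rwa [hob] at h1
  obtain ⟨g, -, hg⟩ := Cfsg.Agent.H571.RM.exists_conj_le (N := ⊤) (T := H) ht le_top hX₀ (by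
    rw [Subgroup.relIndex_top_right]; exact d.idxt t ht htA)
  have hconj_ord : ∀ (g y : G), orderOf (g * y * g⁻¹) = orderOf y := by
    intro g y
    have h2 := (MulAut.conj g).orderOf_eq y
    rwa [MulAut.conj_apply] at h2
  have hx₁A : ∀ k, g * x₀ k * g⁻¹ ∈ A := by
    intro k
    refine d.mem _ (hg ⟨x₀ k, Subgroup.subset_closure ⟨k, rfl⟩, rfl⟩) ?_
    rw [hconj_ord]
    exact (hrx₀ k).odd
  -- the elements of order four
  choose! z₀ hz₀ using fun (k l : Fin n) (hkl : k ≠ l) => hz n κ κ.injective k l hkl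
  set Z₀ : Set G := {z | ∃ k l, k ≠ l ∧ z = z₀ k l} with hZ₀
  have hZ₀p : IsPGroup 2 (Subgroup.closure Z₀) := by
    refine (BB_isPGroup h.two hFE h.inj).to_le ?_
    rw [Subgroup.closure_le]
    rintro _ ⟨k, l, hkl, rfl⟩
    exact (hz₀ k l hkl).mem h hFE
  -- `g z₀ g⁻¹` centralises `A`
  have hz₁A : ∀ k l, k ≠ l → ∀ a ∈ A, (g * z₀ k l * g⁻¹) * a = a * (g * z₀ k l * g⁻¹) := by
    intro k l hkl
    have hz4 := ((hz₀ k l hkl).four h hFE hP₀).conj g
    have hkey : ∀ y ∈ {a | a ∈ A ∧ Rot ρ a}, (g * z₀ k l * g⁻¹) * y = y * (g * z₀ k l * g⁻¹) := by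
      rintro y ⟨hyA, hyr⟩
      by_cases hm : ∃ m, YY ρ y = YY ρ (g * x₀ m * g⁻¹)
      · obtain ⟨m, hm⟩ := hm
        refine ((hrx₀ m).conj g).transfer h hyr hm.symm ?_
        have h1 := (hz₀ k l hkl).comm_x h hFE hP₀ m
        calc g * z₀ k l * g⁻¹ * (g * x₀ m * g⁻¹) = g * (z₀ k l * x₀ m) * g⁻¹ := by group
          _ = g * (x₀ m * z₀ k l) * g⁻¹ := by rw [h1]
          _ = g * x₀ m * g⁻¹ * (g * z₀ k l * g⁻¹) := by group
      · push Not at hm
        have h1 : ∀ m, YY ρ (g * x₀ m * g⁻¹) ≤ XX ρ y := fun m => orth_symm h hyr.hc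
          ((hyr.pair h ((hrx₀ m).conj g) (d.ab y hyA _ (hx₁A m))).resolve_right (hm m))
        refine comm_of_orth h hz4.hc ?_
        rw [YY_map, (hz₀ k l hkl).YY h hFE hP₀, Submodule.map_sup, ← YY_map, ← YY_map]
        exact sup_le (h1 k) (h1 l)
    intro a ha
    have h1 := rgen d s hTH ha
    have h2 : Subgroup.closure {a | a ∈ A ∧ Rot ρ a} ≤ Subgroup.centralizer {g * z₀ k l * g⁻¹} := by
      rw [Subgroup.closure_le]
      intro y hy
      rw [SetLike.mem_coe, Subgroup.mem_centralizer_singleton_iff]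
      exact (hkey y hy).symm
    have h3 := h2 h1
    rw [Subgroup.mem_centralizer_singleton_iff] at h3
    exact h3.symm
  -- conjugate into `H`
  set B₁ : Subgroup G := MulAut.conj g • Subgroup.closure Z₀ with hB₁
  have hB₁p : IsPGroup 2 B₁ := (hZ₀p.map _ : IsPGroup 2 ((Subgroup.closure Z₀).map (MulAut.conj g).toMonoidHom))
  have hB₁A : B₁ ≤ Subgroup.normalizer (A : Set G) := by
    refine le_trans ?_ (Subgroup.centralizer_le_normalizer (A : Set G))
    rw [hB₁, Cfsg.Agent.H571.RM.smul_le_iff', Subgroup.closure_le]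
    rintro _ ⟨k, l, hkl, rfl⟩
    rw [SetLike.mem_coe, Cfsg.Agent.H571.RM.mem_smul_iff', inv_inv, Subgroup.mem_centralizer_iff]
    intro a ha
    exact (hz₁A k l hkl a ha).symm
  have hHA : H ≤ Subgroup.normalizer (A : Set G) := by
    intro y hy
    rw [Subgroup.mem_normalizer_iff]
    intro a
    constructor
    · exact fun ha => d.nor y hy a ha
    · intro ha
      have h1 := d.nor y⁻¹ (H.inv_mem hy) _ ha
      have h2 : y⁻¹ * (y * a * y⁻¹) * y⁻¹⁻¹ = a := by group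
      rwa [h2] at h1
  obtain ⟨m, hmA, hm⟩ := Cfsg.Agent.H571.RM.exists_conj_le (T := H) Nat.prime_two hB₁A hB₁p fun hd =>
    d.idx2 (hd.trans (Subgroup.relIndex_dvd_index_of_le hHA))
  have hmA' : ∀ a ∈ A, m * a * m⁻¹ ∈ A := fun a ha => (Subgroup.mem_normalizer_iff.mp hmA a).mp ha
  have hmA'' : ∀ a ∈ A, m⁻¹ * a * m ∈ A := by
    intro a ha
    have h1 := (Subgroup.mem_normalizer_iff.mp (Subgroup.inv_mem _ hmA) a).mp ha
    rwa [inv_inv] at h1
  -- the final elements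
  set c := m * g with hc
  let x : Fin n → G := fun k => c * x₀ k * c⁻¹
  let z : Fin n → Fin n → G := fun k l => c * z₀ k l * c⁻¹
  have hxe : ∀ k, x k = m * (g * x₀ k * g⁻¹) * m⁻¹ := fun k => by simp only [x, hc]; group
  have hze : ∀ k l, z k l = m * (g * z₀ k l * g⁻¹) * m⁻¹ := fun k l => by simp only [z, hc]; group
  refine ⟨{y | ∃ k l, k ≠ l ∧ y = z k l}, ?_, ?_, ?_⟩
  · rintro _ ⟨k, l, hkl, rfl⟩
    constructor
    · rw [hze]
      exact hm ⟨g * z₀ k l * g⁻¹, ⟨z₀ k l, Subgroup.subset_closure ⟨k, l, hkl, rfl⟩, rfl⟩, rfl⟩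
    · intro a ha
      have h1 := hz₁A k l hkl _ (hmA'' a ha)
      rw [hze]
      calc m * (g * z₀ k l * g⁻¹) * m⁻¹ * a = m * ((g * z₀ k l * g⁻¹) * (m⁻¹ * a * m)) * m⁻¹ := by group
        _ = m * ((m⁻¹ * a * m) * (g * z₀ k l * g⁻¹)) * m⁻¹ := by rw [h1]
        _ = a * (m * (g * z₀ k l * g⁻¹) * m⁻¹) := by group
  · have h1 : IsPGroup 2 (MulAut.conj c • Subgroup.closure Z₀ : Subgroup G) :=
      (hZ₀p.map _ : IsPGroup 2 ((Subgroup.closure Z₀).map (MulAut.conj c).toMonoidHom))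
    refine h1.to_le ?_
    rw [Subgroup.closure_le]
    rintro _ ⟨k, l, hkl, rfl⟩
    exact ⟨z₀ k l, Subgroup.subset_closure ⟨k, l, hkl, rfl⟩, rfl⟩
  · intro y hy a ha b hb
    have hP : ∀ k l, k ≠ l → YY ρ (x k) ≤ XX ρ (x l) := by
      intro k l hkl v hv
      rw [YY_map] at hv
      obtain ⟨w, hw, rfl⟩ := hv
      exact XX_conj (hP₀.orth h hFE hkl hw)
    have hrg := rgen d s hTH
    have hdim : finrank F (⨅ k, XX ρ (x k) : Submodule F V) ≤ 2 := by
      have h1 : (⨅ k, XX ρ (x k) : Submodule F V) ≤ (⨅ k, XX ρ (x₀ k) : Submodule F V).map (ρ c) := by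
        intro v hv
        refine ⟨ρ c⁻¹ v, ?_, ap_inv ρ c v⟩
        rw [SetLike.mem_coe, Submodule.mem_iInf]
        intro k
        rw [Submodule.mem_iInf] at hv
        have h2 := XX_conj (g := c⁻¹) (hv k)
        have h3 : c⁻¹ * (c * x₀ k * c⁻¹) * c⁻¹⁻¹ = x₀ k := by group
        rwa [h3] at h2
      have h2 : finrank F (⨅ k, XX ρ (x₀ k) : Submodule F V) + Fintype.card (Fin n × Bool) = finrank F V := by
        refine frame_orth_dim h.two hFE _ fun w => ?_
        rw [Submodule.mem_iInf]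
        constructor
        · rintro hw ⟨k, b⟩
          exact (mem_XX_iff h (hrx₀ k).hc).mp (hw k) _ (hP₀.mem k b)
        · intro hw k
          rw [mem_XX_iff h (hrx₀ k).hc]
          intro v hv
          obtain ⟨α, β, rfl⟩ := hP₀.span h hFE k hv
          rw [map_add, map_smul, map_smul, LinearMap.add_apply, LinearMap.smul_apply, LinearMap.smul_apply, hw, hw,
            smul_zero, smul_zero, add_zero]
      rw [Fintype.card_prod, Fintype.card_fin, Fintype.card_bool] at h2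
      have h3 := (Submodule.finrank_mono h1).trans (Submodule.finrank_map_le _ _)
      omega
    refine comm_main h d.ab hrg (A' := A.map (MulAut.conj y).toMonoidHom) ?_ (hrg.conj y) (K := Fin n)
      (by rw [Fintype.card_fin]; omega) (x := x) (fun k => by rw [hxe]; exact hmA' _ (hx₁A k))
      (fun k => (hrx₀ k).conj c) hP hdim (z := z) (fun k l hkl => ((hz₀ k l hkl).four h hFE hP₀).conj c) ?_ ?_ a ha _
      ⟨b, hb, rfl⟩
    · rintro _ ⟨p, hp, rfl⟩ _ ⟨q, hq, rfl⟩
      rw [← map_mul, ← map_mul, d.ab p hp q hq]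
    · intro k l hkl
      rw [YY_map, (hz₀ k l hkl).YY h hFE hP₀, Submodule.map_sup, ← YY_map, ← YY_map]
    · rintro k l hkl _ ⟨p, hp, rfl⟩
      obtain ⟨q, hq, hpq⟩ := hy (z k l) ⟨k, l, hkl, rfl⟩ p hp
      exact ⟨q, hq, hpq.symm⟩

end Cfsg.Agent.H556.Over
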