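import Cfsg.Agent.H556.OverG

/-!
# S3849, orthogonal groups (helper556), part H: the elements in `Omega`
-/

set_option autoImplicit false
set_option linter.unusedSectionVars false

namespace Cfsg.Agent.H556.Over

open Module QuadraticMap Cfsg.Agent.H556.Om Cfsg.Agent.H167.OP Cfsg.Agent.H170.HL Cfsg.Agent.H170.HL.OmRow
open Cfsg.Agent.H556.OddCore

variable {F : Type} [Field F] {ι : Type} [Fintype ι] [DecidableEq ι] {Q : QuadraticForm F (ι → F)}
variable {J : Type} [Fintype J] [DecidableEq J] {e : J → ι → F} {c : F}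

/-- the representation of the isometry group -/
noncomputable abbrev rho' (Q : QuadraticForm F (ι → F)) : Representation F (Cfsg.isometryGroup F (⇑Q)) (ι → F) :=
  rep (inc' (⇑Q))

/-- the representation of `Omega` -/
noncomputable abbrev rho (Q : QuadraticForm F (ι → F)) : Representation F (Cfsg.Omega F (⇑Q)) (ι → F) :=
  rep (inc (⇑Q))

theorem ctx (hQ : GoodQ Q) (h2 : (2 : F) ≠ 0) (hc : c ≠ 0) : Ctx (rho Q) (c⁻¹ • polarBilin Q) where
  inj := rep_inj
  two := h2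
  sym := sc_symm
  nd x hx := by
    apply hQ.nd.1
    intro y
    have h := hx y
    rw [sc_apply] at h
    exact (mul_eq_zero.mp h).resolve_left (inv_ne_zero hc)
  iso g u v := sc_iso g u v

theorem exists_perm_two {i j p q : J} (hij : i ≠ j) (hpq : p ≠ q) : ∃ σ : Equiv.Perm J, σ i = p ∧ σ j = q := by
  refine ⟨Equiv.swap (Equiv.swap i p j) q * Equiv.swap i p, ?_, ?_⟩
  · rw [Equiv.Perm.mul_apply, Equiv.swap_apply_left]
    apply Equiv.swap_apply_of_ne_of_ne
    · intro h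
      apply hij
      have h1 : Equiv.swap i p i = Equiv.swap i p j := by rw [Equiv.swap_apply_left]; exact h
      exact (Equiv.swap i p).injective h1
    · exact hpq
  · rw [Equiv.Perm.mul_apply, Equiv.swap_apply_left]

/-- conjugating rotations -/
theorem exists_x (h2 : (2 : F) ≠ 0) (hc : c ≠ 0) (hF : Frame (c⁻¹ • polarBilin Q) e)
    (a : Cfsg.Omega F (⇑Q)) (ha : Rot (rho Q) a) {i j : J} (hij : i ≠ j) (hi : e i ∈ YY (rho Q) a)
    (hj : e j ∈ YY (rho Q) a) {p q : J} (hpq : p ≠ q) :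
    ∃ x : Cfsg.Omega F (⇑Q), orderOf x = orderOf a ∧ Rot (rho Q) x ∧ e p ∈ YY (rho Q) x ∧ e q ∈ YY (rho Q) x := by
  obtain ⟨σ, hσi, hσj⟩ := exists_perm_two hij hpq
  obtain ⟨g, hg⟩ := exists_iso' h2 hc hF (fun _ => 1) σ fun _ => one_mul 1
  have hmem : g * (a : Cfsg.isometryGroup F (⇑Q)) * g⁻¹ ∈ Cfsg.Omega F (⇑Q) :=
    (inferInstance : (Cfsg.Omega F (⇑Q)).Normal).conj_mem _ a.2 g
  have hg1 : ∀ k, rho' Q g (e k) = e (σ k) := by
    intro k
    rw [hg, mono_e hF h2, one_smul]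
  let x : Cfsg.Omega F (⇑Q) := ⟨g * (a : Cfsg.isometryGroup F (⇑Q)) * g⁻¹, hmem⟩
  have hYx : YY (rho Q) x = YY (rho' Q) (g * (a : Cfsg.isometryGroup F (⇑Q)) * g⁻¹) := rfl
  have hYa : YY (rho Q) a = YY (rho' Q) (a : Cfsg.isometryGroup F (⇑Q)) := rfl
  have hox : orderOf x = orderOf a := by
    rw [← Subgroup.orderOf_coe x, ← Subgroup.orderOf_coe a]
    have h1 := (MulAut.conj g).orderOf_eq (a : Cfsg.isometryGroup F (⇑Q))
    rwa [MulAut.conj_apply] at h1
  refine ⟨x, hox, ⟨by rw [hox]; exact ha.hc, by rw [hox]; exact ha.odd, ?_⟩, ?_, ?_⟩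
  · rw [hYx, finrank_YY_conj, ← hYa]
    exact ha.two
  · rw [hYx, ← hσi, ← hg1]
    exact YY_conj hi
  · rw [hYx, ← hσj, ← hg1]
    exact YY_conj hj

/-- the four-cycle -/
def cyc {K : Type} [DecidableEq K] {i j : K} (hij : i ≠ j) : Equiv.Perm (K × Bool) where
  toFun l := if l.1 = i then (j, l.2) else if l.1 = j then (i, !l.2) else l
  invFun l := if l.1 = j then (i, l.2) else if l.1 = i then (j, !l.2) else l
  left_inv := by
    rintro ⟨k, b⟩
    by_cases h1 : k = i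
    · simp [h1]
    · by_cases h3 : k = j
      · subst h3
        simp [hij, hij.symm]
      · simp [h1, h3]
  right_inv := by
    rintro ⟨k, b⟩
    by_cases h1 : k = j
    · simp [h1]
    · by_cases h3 : k = i
      · subst h3
        simp [hij, hij.symm]
      · simp [h1, h3]

/-- the elements `z i j` -/
theorem exists_z (hQ : GoodQ Q) (h2 : (2 : F) ≠ 0) (hc : c ≠ 0) (hF : Frame (c⁻¹ • polarBilin Q) e) (n : ℕ)
    (κ : Fin n × Bool → J) (hκ : Function.Injective κ) (i j : Fin n) (hij : i ≠ j) :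
    ∃ z : Cfsg.Omega F (⇑Q), IsZ (rho Q) (c⁻¹ • polarBilin Q) (e ∘ κ) i j z := by
  have hFE : Frame (c⁻¹ • polarBilin Q) (e ∘ κ) := hF.comp hκ
  let s : Fin n × Bool → F := fun l => if l.1 = j ∧ l.2 = true then -1 else 1
  have hs : ∀ l, s l * s l = 1 := by
    intro l
    simp only [s]
    split_ifs <;> ring
  obtain ⟨g, hg⟩ := exists_iso' h2 hc hFE s (cyc hij) hs
  refine ⟨⟨g * g, hQ.sq g⟩, ?_⟩
  have h1 : rho Q ⟨g * g, hQ.sq g⟩ = rho' Q (g * g) := rfl
  unfold IsZ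
  rw [h1, map_mul, hg, mono_mul hFE h2]
  congr 1
  · funext l
    obtain ⟨k, b⟩ := l
    simp only [s, zs, cyc, Equiv.coe_fn_mk]
    by_cases hk : k = i
    · subst hk
      cases b <;> simp [hij]
    · by_cases hk' : k = j
      · subst hk'
        cases b <;> simp [hij, hij.symm]
      · cases b <;> simp [hk, hk']
  · funext l
    obtain ⟨k, b⟩ := l
    simp only [cyc, Equiv.coe_fn_mk, fl, zb, Function.comp]
    by_cases hk : k = i
    · subst hk
      simp [hij.symm]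
    · by_cases hk' : k = j
      · subst hk'
        simp [hij.symm]
      · simp [hk, hk']

/-- **the alternative in `Omega`** -/
theorem alternative [Finite F] (hQ : GoodQ Q) (h2 : (2 : F) ≠ 0) (hN : 7 ≤ Fintype.card ι)
    {A H : Subgroup (Cfsg.Omega F (⇑Q))}
    (hab : ∀ a ∈ A, ∀ b ∈ A, a * b = b * a) (hodd : Odd (Nat.card A)) (hchar : (Nat.card A : F) ≠ 0) (hAH : A ≤ H)
    (hnor : ∀ h ∈ H, ∀ a ∈ A, h * a * h⁻¹ ∈ A) (hmem : ∀ y ∈ H, Odd (orderOf y) → y ∈ A) (hidx2 : ¬ 2 ∣ H.index)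
    (hidxt : ∀ t : ℕ, t.Prime → t ∣ Nat.card A → ¬ t ∣ H.index) :
    (∀ x ∈ A, x ≠ 1 → ∀ y : Cfsg.Omega F (⇑Q), y * x = x * y → ∀ a ∈ A, y * a = a * y) ∨
    ∃ Z : Set (Cfsg.Omega F (⇑Q)), (∀ z ∈ Z, z ∈ H ∧ ∀ a ∈ A, z * a = a * z) ∧ IsPGroup 2 (Subgroup.closure Z) ∧
      ∀ g : Cfsg.Omega F (⇑Q), (∀ z ∈ Z, ∀ a ∈ A, ∃ b ∈ A, z * (g * a * g⁻¹) * z⁻¹ = g * b * g⁻¹) →
        ∀ a ∈ A, ∀ b ∈ A, a * (g * b * g⁻¹) = g * b * g⁻¹ * a := by
  have hfin : Finite (Cfsg.Omega F (⇑Q)) := inferInstance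
  obtain ⟨c, hc, J, _, _, e₀, hF₀, hcard⟩ := exists_scaled hQ.nd h2 (by omega)
  obtain ⟨e, hF, hD⟩ := exists_frame_in hQ h2 hc hF₀ hidx2
  have hfr : finrank F (ι → F) = Fintype.card ι := Module.finrank_pi F
  let W : Submodule F (ι → F) := ⨅ j, LinearMap.ker ((c⁻¹ • polarBilin Q) (e j))
  have hW : ∀ w, w ∈ W ↔ ∀ j, (c⁻¹ • polarBilin Q) (e j) w = 0 := by
    intro w
    simp only [W, Submodule.mem_iInf, LinearMap.mem_ker]
  have hWd := leftover_dim h2 hF W hW
  have d : AH (rho Q) (c⁻¹ • polarBilin Q) A H :=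
    ⟨ctx hQ h2 hc, hab, hodd, hchar, hAH, hnor, hmem, hidx2, hidxt⟩
  let T : Set (Cfsg.Omega F (⇑Q)) :=
    {t | t ∈ H ∧ ∃ i j, i ≠ j ∧ rho Q t = mono (c⁻¹ • polarBilin Q) e (sg F i j) id}
  have s : Sg (rho Q) (c⁻¹ • polarBilin Q) e T :=
    { ctx := ctx hQ h2 hc
      fr := hF
      W1 := by
        intro w w' hw hw' hw0
        have h1 : finrank F W = 1 := by
          have h3 : finrank F W ≠ 0 := by
            intro h0
            rw [Submodule.finrank_eq_zero] at h0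
            have h4 := (hW w).mpr hw
            rw [h0, Submodule.mem_bot] at h4
            exact hw0 h4
          omega
        obtain ⟨d, hd⟩ := (finrank_eq_one_iff_of_nonzero' (⟨w, (hW w).mpr hw⟩ : W)
          (fun h => hw0 (congrArg Subtype.val h))).mp h1 ⟨w', (hW w').mpr hw'⟩
        exact ⟨d, (congrArg Subtype.val hd).symm⟩
      five := by omega
      mem := fun t ht => ht.2
      ex := by
        intro i j hij
        obtain ⟨g, hg, hgI⟩ := hD {i, j} (by rw [Finset.card_pair hij]; exact even_two)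
        have h1 : sgn F ({i, j} : Finset J) = sg F i j := by
          funext k
          simp [sgn, sg]
        rw [h1] at hgI
        exact ⟨g, ⟨hg, i, j, hij, hgI⟩, hgI⟩ }
  by_cases hI : ∃ a ∈ EE T A, a ≠ 1 ∧ ∃ i j, i ≠ j ∧ e i ∈ YY (rho Q) a ∧ e j ∈ YY (rho Q) a
  · right
    exact case_one d s (fun t ht => ht.1) (by omega) (by rw [hfr]; omega)
      (fun a ha i j hij hi hj p q hpq => exists_x h2 hc hF a ha hij hi hj hpq)
      (fun n κ hκ i j hij => exists_z hQ h2 hc hF n κ hκ i j hij) hI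
  · left
    refine case_two d s (fun t ht => ht.1) fun a ha ha1 hcon => hI ⟨a, ha, ha1, hcon⟩

end Cfsg.Agent.H556.Over
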